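import Cfsg.Agent.Classical.Unitary.Group
import Cfsg.Prelude.Def_GeometricClasses
import Mathlib.LinearAlgebra.Basis.VectorSpace
import Mathlib.RingTheory.RootsOfUnity.PrimitiveRoots

/-!
Ambient groups of matrices in which elements with split separable scalar power diagonalise: all of `GL n` and `GU n`.
-/

set_option autoImplicit false

namespace CfsgLib.Classical.PrimeDerangement

open Matrix

variable {F : Type*} [Field F] {n : ℕ}

/-- The diagonal element of `GL`. -/
def diagU (d : Fin n → Fˣ) : GL (Fin n) F where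
  val := Matrix.diagonal fun i => (d i : F)
  inv := Matrix.diagonal fun i => ((d i)⁻¹ : Fˣ)
  val_inv := by rw [Matrix.diagonal_mul_diagonal, ← Matrix.diagonal_one]; congr 1; funext i; simp
  inv_val := by rw [Matrix.diagonal_mul_diagonal, ← Matrix.diagonal_one]; congr 1; funext i; simp

@[simp] theorem coe_diagU (d : Fin n → Fˣ) :
    ((diagU d : GL (Fin n) F) : Matrix (Fin n) (Fin n) F) = Matrix.diagonal fun i => (d i : F) := rfl

theorem diagU_mul (d e : Fin n → Fˣ) : diagU d * diagU e = diagU (d * e) :=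
  Units.ext (by simp [Matrix.diagonal_mul_diagonal])

theorem diagU_comm (d e : Fin n → Fˣ) : diagU d * diagU e = diagU e * diagU d := by
  rw [diagU_mul, diagU_mul, mul_comm]

/-- The matrix of a permutation, `e_i ↦ e_{σ i}`, as an element of `GL`. -/
def permU (σ : Equiv.Perm (Fin n)) : GL (Fin n) F where
  val := (1 : Matrix (Fin n) (Fin n) F).submatrix σ.symm id
  inv := (1 : Matrix (Fin n) (Fin n) F).submatrix σ id
  val_inv := by
    ext i j
    simp [Matrix.mul_apply, Matrix.one_apply, Equiv.apply_eq_iff_eq_symm_apply]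
  inv_val := by
    ext i j
    simp [Matrix.mul_apply, Matrix.one_apply, Equiv.symm_apply_eq]

theorem coe_permU (σ : Equiv.Perm (Fin n)) (i j : Fin n) :
    ((permU σ : GL (Fin n) F) : Matrix (Fin n) (Fin n) F) i j = if σ.symm i = j then 1 else 0 := by
  simp [permU, Matrix.one_apply]

theorem permU_mulVec (σ : Equiv.Perm (Fin n)) (v : Fin n → F) :
    ((permU σ : GL (Fin n) F) : Matrix (Fin n) (Fin n) F).mulVec v = fun i => v (σ.symm i) := by
  funext i
  simp [Matrix.mulVec, dotProduct, coe_permU]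

theorem permU_diagU (σ : Equiv.Perm (Fin n)) (d : Fin n → Fˣ) :
    permU σ * diagU d = diagU (d ∘ σ.symm) * permU σ := by
  refine Units.ext (Matrix.ext fun i j => ?_)
  simp only [Units.val_mul, coe_diagU, Matrix.mul_diagonal, Matrix.diagonal_mul, coe_permU, Function.comp_apply]
  split_ifs with h <;> simp [h]

/-- An ambient group: it contains the diagonal matrices with entries in `norms`, the permutation matrices,
diagonalises elements with split separable scalar power, and normalises monomial frames. -/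
structure Ambient (F : Type*) [Field F] (n : ℕ) where
  /-- the group -/
  G : Subgroup (GL (Fin n) F)
  /-- the possible eigenvalues -/
  norms : Subgroup Fˣ
  det_mem : ∀ g ∈ G, Matrix.GeneralLinearGroup.det g ∈ norms
  diag_mem : ∀ d : Fin n → Fˣ, (∀ i, d i ∈ norms) → diagU d ∈ G
  perm_mem : ∀ σ : Equiv.Perm (Fin n), permU σ ∈ G
  eigen : ∀ (r : ℕ) (ζ y : Fˣ), IsPrimitiveRoot ζ r → 1 < r → (r : F) ≠ 0 → ζ ∈ norms → y ∈ norms →
    ∀ x ∈ G, ((x : Matrix (Fin n) (Fin n) F)) ^ r = ((y : F) ^ r) • (1 : Matrix (Fin n) (Fin n) F) →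
      ∃ P ∈ G, ∃ e : Fin n → ℕ, x * P = P * diagU fun i => y * ζ ^ e i
  frame : ∀ a ∈ G, ∀ b ∈ G, ∀ (σ : Equiv.Perm (Fin n)) (lam : Fin n → Fˣ) (f : Fin n → Fin n → F),
    Function.Injective lam → (∀ i, lam i ∈ norms) → (∀ i, f i ≠ 0) →
    (∀ i, (a : Matrix (Fin n) (Fin n) F).mulVec (f i) = (lam i : F) • f i) →
    (∀ i, (b : Matrix (Fin n) (Fin n) F).mulVec (f i) = f (σ i)) → (∀ i j, ∃ k : ℕ, (σ ^ k) i = j) →
    ∃ P ∈ G, a * P = P * diagU lam ∧ b * P = P * permU σ

theorem cols_of (f : Fin n → Fin n → F) : Unitary.cols (Matrix.of fun i j => f j i) = f := rfl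

theorem mul_eq_of_cols {x : Matrix (Fin n) (Fin n) F} {P D : Matrix (Fin n) (Fin n) F}
    (h : ∀ j, x.mulVec (Unitary.cols P j) = P.mulVec (Unitary.cols D j)) : x * P = P * D := by
  ext i j
  simpa [Matrix.mul_apply, Matrix.mulVec, dotProduct, Unitary.cols] using congrFun (h j) i

theorem eq_diagU_of_eigvec {x P : GL (Fin n) F} {f : Fin n → Fin n → F} {lam : Fin n → Fˣ}
    (hP : ∀ i j, (P : Matrix (Fin n) (Fin n) F) i j = f j i)
    (h : ∀ i, (x : Matrix (Fin n) (Fin n) F).mulVec (f i) = (lam i : F) • f i) : x * P = P * diagU lam := by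
  refine Units.ext (mul_eq_of_cols fun j => ?_)
  have e : Unitary.cols (P : Matrix (Fin n) (Fin n) F) j = f j := funext fun i => hP i j
  rw [e, h]
  funext i
  simp [Matrix.mulVec, dotProduct, Unitary.cols, hP, Matrix.diagonal_apply, mul_comm]

theorem eq_permU_of_frame {x P : GL (Fin n) F} {f : Fin n → Fin n → F} {σ : Equiv.Perm (Fin n)}
    (hP : ∀ i j, (P : Matrix (Fin n) (Fin n) F) i j = f j i)
    (h : ∀ i, (x : Matrix (Fin n) (Fin n) F).mulVec (f i) = f (σ i)) : x * P = P * permU σ := by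
  refine Units.ext (mul_eq_of_cols fun j => ?_)
  have e : Unitary.cols (P : Matrix (Fin n) (Fin n) F) j = f j := funext fun i => hP i j
  rw [e, h]
  funext i
  simp [Matrix.mulVec, dotProduct, Unitary.cols, hP, coe_permU, Equiv.symm_apply_eq]

/-- The eigenvector components of a vector. -/
noncomputable def comp (x : Matrix (Fin n) (Fin n) F) (r : ℕ) (c : F) (v : Fin n → F) : Fin n → F :=
  (r : F)⁻¹ • ∑ j ∈ Finset.range r, (c ^ j)⁻¹ • (x ^ j).mulVec v

theorem comp_mem {x : Matrix (Fin n) (Fin n) F} {W : Submodule F (Fin n → F)} (hW : ∀ v ∈ W, x.mulVec v ∈ W)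
    (r : ℕ) (c : F) {v : Fin n → F} (hv : v ∈ W) : comp x r c v ∈ W := by
  refine W.smul_mem _ (W.sum_mem fun j _ => W.smul_mem _ ?_)
  rename_i hj
  clear hj
  induction j with
  | zero => simpa using hv
  | succ j ih => rw [pow_succ', ← Matrix.mulVec_mulVec]; exact hW _ ih

theorem mulVec_comp {x : Matrix (Fin n) (Fin n) F} {r : ℕ} {c : F} (hc : c ≠ 0)
    (hx : x ^ r = (c ^ r) • (1 : Matrix (Fin n) (Fin n) F)) (v : Fin n → F) :
    x.mulVec (comp x r c v) = c • comp x r c v := by
  have h : ∀ j, x.mulVec ((c ^ j)⁻¹ • (x ^ j).mulVec v) = c • ((c ^ (j + 1))⁻¹ • (x ^ (j + 1)).mulVec v) := by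
    intro j
    rw [Matrix.mulVec_smul, Matrix.mulVec_mulVec, ← pow_succ', smul_smul, pow_succ c j]
    congr 1
    field_simp
  rw [comp, Matrix.mulVec_smul, Matrix.mulVec_sum, Finset.sum_congr rfl fun j _ => h j, ← Finset.smul_sum,
    smul_comm c]
  congr 2
  have h1 := Finset.sum_range_succ (fun j => (c ^ j)⁻¹ • (x ^ j).mulVec v) r
  rw [Finset.sum_range_succ'] at h1
  have h2 : (c ^ r)⁻¹ • (x ^ r).mulVec v = v := by
    rw [hx, Matrix.smul_mulVec, Matrix.one_mulVec, smul_smul, inv_mul_cancel₀ (pow_ne_zero r hc), one_smul]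
  simpa [h2] using h1

theorem sum_comp {x : Matrix (Fin n) (Fin n) F} {r : ℕ} {ζ y : F} (hζ : IsPrimitiveRoot ζ r) (hr1 : 1 < r)
    (hr : (r : F) ≠ 0) (v : Fin n → F) : ∑ k ∈ Finset.range r, comp x r (y * ζ ^ k) v = v := by
  simp only [comp, ← Finset.smul_sum]
  rw [Finset.sum_comm, Finset.sum_eq_single 0]
  · simp [Finset.sum_const, ← Nat.cast_smul_eq_nsmul F, hr]
  · intro j hj hj0
    rw [← Finset.sum_smul]
    have hζ' : IsPrimitiveRoot ζ⁻¹ r := hζ.inv
    have hne : ζ⁻¹ ^ j ≠ 1 := hζ'.pow_ne_one_of_pos_of_lt hj0 (Finset.mem_range.1 hj)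
    have e : ∀ k, ((y * ζ ^ k) ^ j)⁻¹ = (y ^ j)⁻¹ * (ζ⁻¹ ^ j) ^ k := fun k => by
      rw [mul_pow, mul_inv, ← pow_mul, ← pow_mul, mul_comm k j, inv_pow]
    simp only [e, ← Finset.mul_sum]
    rw [geom_sum_eq hne, ← pow_mul, mul_comm j r, pow_mul, hζ'.pow_eq_one, one_pow, sub_self, zero_div, mul_zero,
      zero_smul]
  · intro h
    exact absurd (Finset.mem_range.2 (lt_trans Nat.zero_lt_one hr1)) h

theorem frame_surjective {a b : GL (Fin n) F} {σ : Equiv.Perm (Fin n)} {lam : Fin n → Fˣ}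
    {f : Fin n → Fin n → F} (hinj : Function.Injective lam) (hne : ∀ i, f i ≠ 0)
    (ha : ∀ i, (a : Matrix (Fin n) (Fin n) F).mulVec (f i) = (lam i : F) • f i) : LinearIndependent F f :=
  Module.End.eigenvectors_linearIndependent' (Matrix.toLin' (a : Matrix (Fin n) (Fin n) F))
    (fun i => (lam i : F)) (fun i j h => hinj (Units.ext h)) f
    fun i => ⟨Module.End.mem_eigenspace_iff.2 (ha i), hne i⟩

/-- All of `GL`. -/
noncomputable def linearAmbient (F : Type*) [Field F] (n : ℕ) : Ambient F n where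
  G := ⊤
  norms := ⊤
  det_mem _ _ := Subgroup.mem_top _
  diag_mem _ _ := Subgroup.mem_top _
  perm_mem _ := Subgroup.mem_top _
  eigen := by
    intro r ζ y hζ hr1 hr _ _ x _ hx
    let s : Set (Fin n → F) :=
      {v | ∃ k, (x : Matrix (Fin n) (Fin n) F).mulVec v = (((y * ζ ^ k : Fˣ)) : F) • v}
    have hs : ⊤ ≤ Submodule.span F s := by
      intro v _
      rw [← sum_comp (x := (x : Matrix (Fin n) (Fin n) F)) (y := (y : F))
        (IsPrimitiveRoot.coe_units_iff.2 hζ) hr1 hr v]
      refine Submodule.sum_mem _ fun k _ => Submodule.subset_span ⟨k, ?_⟩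
      have hpow : ((y : F) * (ζ : F) ^ k) ^ r = (y : F) ^ r := by
        rw [mul_pow, ← pow_mul, mul_comm k r, pow_mul, (IsPrimitiveRoot.coe_units_iff.2 hζ).pow_eq_one, one_pow,
          mul_one]
      rw [Units.val_mul, Units.val_pow_eq_pow_val]
      exact mulVec_comp (mul_ne_zero y.ne_zero (pow_ne_zero _ ζ.ne_zero)) (hx.trans (by rw [hpow])) v
    let B := Module.Basis.ofSpan hs
    haveI := Module.Finite.finite_basis B
    have := Fintype.ofFinite ((linearIndepOn_empty F id).extend (Set.empty_subset s))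
    have hcard : Fintype.card ((linearIndepOn_empty F id).extend (Set.empty_subset s)) = Fintype.card (Fin n) := by
      rw [← Module.finrank_eq_card_basis B, Module.finrank_fintype_fun_eq_card]
    let B' := B.reindex (Fintype.equivOfCardEq hcard)
    have hB' : ∀ i, ∃ k, (x : Matrix (Fin n) (Fin n) F).mulVec (B' i) = (((y * ζ ^ k : Fˣ)) : F) • B' i :=
      fun i => Module.Basis.ofSpan_subset hs ⟨(Fintype.equivOfCardEq hcard).symm i, (B.reindex_apply _ i).symm⟩
    choose e he using hB'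
    refine ⟨Matrix.GeneralLinearGroup.mk'' (Matrix.of fun i j => B' j i) ?_, Subgroup.mem_top _, e,
      eq_diagU_of_eigvec (fun i j => rfl) he⟩
    rw [← Matrix.isUnit_iff_isUnit_det, ← Matrix.linearIndependent_cols_iff_isUnit]
    exact B'.linearIndependent
  frame := by
    intro a _ b _ σ lam f hinj _ hne ha hb _
    refine ⟨Matrix.GeneralLinearGroup.mk'' (Matrix.of fun i j => f j i) ?_, Subgroup.mem_top _,
      eq_diagU_of_eigvec (fun i j => rfl) ha, eq_permU_of_frame (fun i j => rfl) hb⟩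
    rw [← Matrix.isUnit_iff_isUnit_det, ← Matrix.linearIndependent_cols_iff_isUnit]
    exact frame_surjective (b := b) (σ := σ) hinj hne ha

variable [Fintype F] {q : ℕ}

open CfsgLib.Unitary Cfsg in
/-- Eigenvectors of a unitary map for different eigenvalues of norm one are orthogonal. -/
theorem herm_eq_zero_of_eigen {x : GL (Fin n) F} (hx : x ∈ GU n F q) {u v : Fin n → F} {c d : F}
    (hd : d ^ (q + 1) = 1) (hcd : c ≠ d) (hu : (x : Matrix (Fin n) (Fin n) F).mulVec u = c • u)
    (hv : (x : Matrix (Fin n) (Fin n) F).mulVec v = d • v) : hermForm n F q u v = 0 := by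
  have h := mem_GU.1 hx u v
  rw [hu, hv, herm_smul_left, herm_smul_right, ← mul_assoc] at h
  have hne : c * d ^ q ≠ 1 := by
    intro e
    refine hcd ?_
    calc c = c * d ^ (q + 1) := by rw [hd, mul_one]
      _ = c * d ^ q * d := by rw [pow_succ, mul_assoc]
      _ = d := by rw [e, one_mul]
  by_contra h0
  exact hne (mul_right_cancel₀ h0 (h.trans (one_mul _).symm))

open CfsgLib.Unitary Cfsg in
theorem exists_orthonorm_eigen (hF : Fintype.card F = q ^ 2) {x : GL (Fin n) F} (hx : x ∈ GU n F q) {r : ℕ}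
    {ζ y : Fˣ} (hζ : IsPrimitiveRoot ζ r) (hr1 : 1 < r) (hr : (r : F) ≠ 0) (hζn : ζ ^ (q + 1) = 1)
    (hy : y ^ (q + 1) = 1)
    (hxr : ((x : Matrix (Fin n) (Fin n) F)) ^ r = ((y : F) ^ r) • (1 : Matrix (Fin n) (Fin n) F)) :
    ∀ k, k ≤ n → ∃ f : Fin k → Fin n → F, Orthonorm q f ∧
      ∀ i, ∃ e : ℕ, (x : Matrix (Fin n) (Fin n) F).mulVec (f i) = (((y * ζ ^ e : Fˣ)) : F) • f i := by
  intro k
  induction k with
  | zero => exact fun _ => ⟨Fin.elim0, fun i => i.elim0, fun i => i.elim0⟩
  | succ k ih =>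
    intro hk
    obtain ⟨f, hf, hfe⟩ := ih (by omega)
    set X := (x : Matrix (Fin n) (Fin n) F)
    have hnorm : ∀ e : ℕ, (((y * ζ ^ e : Fˣ)) : F) ^ (q + 1) = 1 := fun e => by
      rw [← Units.val_pow_eq_pow_val, mul_pow, hy, ← pow_mul, mul_comm e, pow_mul, hζn, one_pow, one_mul,
        Units.val_one]
    -- the orthogonal of the vectors found so far
    let W : Submodule F (Fin n → F) :=
      { carrier := {u | ∀ i, hermForm n F q u (f i) = 0}
        zero_mem' := fun i => herm_zero_left _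
        add_mem' := fun {a b} ha hb i => by rw [herm_add_left, ha i, hb i, add_zero]
        smul_mem' := fun c a ha i => by rw [herm_smul_left, ha i, mul_zero] }
    have hWx : ∀ u ∈ W, X.mulVec u ∈ W := by
      intro u hu i
      obtain ⟨e, he⟩ := hfe i
      have h := mem_GU.1 hx u (f i)
      rw [he, herm_smul_right, hu i] at h
      exact (mul_eq_zero.1 h).resolve_left (pow_ne_zero _ (Units.ne_zero _))
    have hWne : ∃ u ∈ W, ∃ v ∈ W, hermForm n F q u v ≠ 0 := by
      obtain ⟨g, hg, hgf⟩ := exists_orthonorm_extend_univ hF hf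
      have hmem : g ⟨k, by omega⟩ ∈ W := fun i => by
        rw [← hgf i, hg]
        simp [Fin.ext_iff, (Fin.is_lt i).ne']
      exact ⟨_, hmem, _, hmem, by rw [hg]; simp⟩
    obtain ⟨u, hu, v, hv, huv⟩ := hWne
    let c : ℕ → Fˣ := fun e => y * ζ ^ e
    have hcomp : ∀ e w, X.mulVec (comp X r (c e : F) w) = (c e : F) • comp X r (c e : F) w := fun e w => by
      refine mulVec_comp (Units.ne_zero _) (hxr.trans ?_) w
      rw [Units.val_mul, Units.val_pow_eq_pow_val, mul_pow, ← pow_mul, mul_comm e, pow_mul,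
        (IsPrimitiveRoot.coe_units_iff.2 hζ).pow_eq_one, one_pow, mul_one]
    have hsum : ∀ w, ∑ e ∈ Finset.range r, comp X r (c e : F) w = w := fun w => by
      simp only [c, Units.val_mul, Units.val_pow_eq_pow_val]
      exact sum_comp (IsPrimitiveRoot.coe_units_iff.2 hζ) hr1 hr w
    obtain ⟨e, he, hne⟩ : ∃ e ∈ Finset.range r,
        hermForm n F q (comp X r (c e : F) u) (comp X r (c e : F) v) ≠ 0 := by
      by_contra h
      push Not at h
      apply huv
      rw [← hsum u, ← hsum v, herm_sum_left]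
      refine Finset.sum_eq_zero fun i hi => ?_
      rw [herm_sum_right hF]
      refine Finset.sum_eq_zero fun j hj => ?_
      rcases eq_or_ne i j with rfl | hij
      · exact h i hi
      refine herm_eq_zero_of_eigen hx (hnorm j) (fun he => hij ?_) (hcomp i u) (hcomp j v)
      have he' : (y : Fˣ) * ζ ^ i = y * ζ ^ j := Units.ext he
      exact hζ.pow_inj (Finset.mem_range.1 hi) (Finset.mem_range.1 hj) (mul_left_cancel he')
    let U : Submodule F (Fin n → F) :=
      { carrier := {w | w ∈ W ∧ X.mulVec w = (c e : F) • w}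
        zero_mem' := ⟨W.zero_mem, by simp⟩
        add_mem' := fun {a b} ha hb => ⟨W.add_mem ha.1 hb.1, by rw [Matrix.mulVec_add, ha.2, hb.2, smul_add]⟩
        smul_mem' := fun d a ha => ⟨W.smul_mem d ha.1, by rw [Matrix.mulVec_smul, ha.2, smul_comm]⟩ }
    obtain ⟨w, hw, hw1⟩ := exists_norm_one_mem hF (W := U)
      ⟨_, ⟨comp_mem hWx _ _ hu, hcomp e u⟩, _, ⟨comp_mem hWx _ _ hv, hcomp e v⟩, hne⟩
    refine ⟨Fin.snoc (α := fun _ => Fin n → F) f w, hf.snoc hF hw1 hw.1, fun i => ?_⟩
    induction i using Fin.lastCases with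
    | last => exact ⟨e, by rw [Fin.snoc_last]; exact hw.2⟩
    | cast i => rw [Fin.snoc_castSucc]; exact hfe i

open CfsgLib.Unitary Cfsg in
/-- The unitary group. -/
noncomputable def unitaryAmbient (hF : Fintype.card F = q ^ 2) (n : ℕ) : Ambient F n where
  G := GU n F q
  norms := (powMonoidHom (q + 1) : Fˣ →* Fˣ).ker
  det_mem g hg := MonoidHom.mem_ker.2 (Units.ext (by simpa using det_pow_succ_eq_one hF hg))
  diag_mem d hd := mem_GU.2 (by
    rw [coe_diagU]
    exact diagonal_preserves _ fun i => by simpa using congrArg Units.val (MonoidHom.mem_ker.1 (hd i)))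
  perm_mem σ := mem_GU.2 fun u v => by
    rw [permU_mulVec, permU_mulVec]
    exact Equiv.sum_comp σ.symm fun i => u i * v i ^ q
  eigen := by
    intro r ζ y hζ hr1 hr hζn hy x hx hxr
    obtain ⟨f, hf, hfe⟩ := exists_orthonorm_eigen hF hx hζ hr1 hr (MonoidHom.mem_ker.1 hζn)
      (MonoidHom.mem_ker.1 hy) hxr n le_rfl
    choose e he using hfe
    exact ⟨((guEquivOrthonorm hF).symm ⟨f, hf⟩).1, ((guEquivOrthonorm hF).symm ⟨f, hf⟩).2, e,
      eq_diagU_of_eigvec (fun i j => rfl) he⟩
  frame := by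
    intro a ha b hb σ lam f hinj hlam hne hae hbe hcyc
    rcases Nat.eq_zero_or_pos n with rfl | hn
    · exact ⟨1, one_mem _, Units.ext (Matrix.ext fun i => i.elim0), Units.ext (Matrix.ext fun i => i.elim0)⟩
    have horth : ∀ i j, i ≠ j → hermForm n F q (f i) (f j) = 0 := fun i j hij =>
      herm_eq_zero_of_eigen ha (by simpa using congrArg Units.val (MonoidHom.mem_ker.1 (hlam j)))
        (fun h => hij (hinj (Units.ext h))) (hae i) (hae j)
    set i₀ : Fin n := ⟨0, hn⟩
    have heq : ∀ j, hermForm n F q (f j) (f j) = hermForm n F q (f i₀) (f i₀) := by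
      intro j
      obtain ⟨k, rfl⟩ := hcyc i₀ j
      induction k with
      | zero => rfl
      | succ k ih =>
        rw [pow_succ', Equiv.Perm.mul_apply, ← hbe, mem_GU.1 hb, ih]
    have hli := frame_surjective (b := b) (σ := σ) hinj hne hae
    have hnz : hermForm n F q (f i₀) (f i₀) ≠ 0 := by
      intro h0
      refine hne i₀ (herm_nondeg hF _ fun v => ?_)
      haveI : Nonempty (Fin n) := ⟨i₀⟩
      let B := basisOfLinearIndependentOfCardEqFinrank hli (Module.finrank_fintype_fun_eq_card F).symm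
      rw [← B.sum_repr v, herm_sum_right hF]
      refine Finset.sum_eq_zero fun j _ => ?_
      rw [herm_smul_right, coe_basisOfLinearIndependentOfCardEqFinrank]
      rcases eq_or_ne i₀ j with h | h
      · rw [← h, h0, mul_zero]
      · rw [horth _ _ h, mul_zero]
    obtain ⟨c, hc⟩ := exists_norm_eq hF (a := (hermForm n F q (f i₀) (f i₀))⁻¹)
      (by rw [inv_pow, herm_self_fixed hF])
    have hf : Orthonorm q fun i => c • f i := by
      intro i j
      rw [herm_smul_left, herm_smul_right, ← mul_assoc, ← pow_succ']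
      rcases eq_or_ne i j with rfl | h
      · rw [if_pos rfl, hc, heq i, inv_mul_cancel₀ hnz]
      · rw [if_neg h, horth i j h, mul_zero]
    refine ⟨((guEquivOrthonorm hF).symm ⟨_, hf⟩).1, ((guEquivOrthonorm hF).symm ⟨_, hf⟩).2,
      eq_diagU_of_eigvec (f := fun i => c • f i) (fun i j => rfl) fun i => ?_,
      eq_permU_of_frame (f := fun i => c • f i) (fun i j => rfl) fun i => ?_⟩
    · rw [Matrix.mulVec_smul, hae, smul_comm]
    · rw [Matrix.mulVec_smul, hbe]

end CfsgLib.Classical.PrimeDerangement
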