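import Cfsg.Agent.Classical.PrimeDerangement.SpTensor
import Cfsg.Agent.Classical.Semisimple.Singer

/-!
The model of an element of prime order in the symplectic group when the order of `q` modulo it is odd.
-/

set_option autoImplicit false
set_option maxHeartbeats 800000

namespace CfsgLib.Classical.PrimeDerangement

open Matrix Polynomial

variable {F : Type*} [Field F] {d : ℕ}

local notation "κ" => (Fin d ⊕ Fin d)

variable [Fintype F] {r : ℕ} [Fact r.Prime]

/-- Order of `q` modulo `r` odd. -/
theorem exists_odd_model (hr2 : r ≠ 2) (hrF : (r : F) ≠ 0)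
    (hodd : Odd (orderOf (Fintype.card F : ZMod r))) (hid : orderOf (Fintype.card F : ZMod r) ≤ d) :
    ∃ x ∈ Cfsg.spGL d F, x ^ r = 1 ∧ x ≠ 1 ∧
      ((x : Matrix κ κ F) - 1).rank ≤ 2 * orderOf (Fintype.card F : ZMod r) ∧
      ∃ P : F[X], Module.finrank F (LinearMap.ker (aeval (x : Matrix κ κ F) P).mulVecLin) =
        orderOf (Fintype.card F : ZMod r) := by
  classical
  set i := orderOf (Fintype.card F : ZMod r) with hi
  have hi0 : 0 < i := Semisimple.orderOf_card_pos hrF
  have hdvd : r ∣ Nat.card (GL (Fin i) F) := by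
    rw [Matrix.card_GL_field]
    refine dvd_trans ?_ (Finset.dvd_prod_of_mem _ (Finset.mem_univ (⟨0, hi0⟩ : Fin i)))
    simpa using (Semisimple.dvd_pow_sub_one_iff_orderOf_dvd i).2 (dvd_refl i)
  obtain ⟨A, hA⟩ := exists_prime_orderOf_dvd_card' r hdvd
  have hAr : A ^ r = 1 := hA ▸ pow_orderOf_eq_one A
  have hA1 : A ≠ 1 := fun h => (Fact.out : r.Prime).ne_one (by rw [← hA, h, orderOf_one])
  obtain ⟨P, hP, -, hPd, hP0⟩ := Semisimple.exists_irreducible_aeval_eq_zero_of_orderOf_eq hrF
    (f := Matrix.toLinAlgEquiv' (A : Matrix (Fin i) (Fin i) F)) (by rw [Module.finrank_fin_fun])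
    (by rw [← map_pow, ← Units.val_pow_eq_pow_val, hAr, Units.val_one, map_one])
    (fun h => hA1 (Units.ext ((Matrix.toLinAlgEquiv').injective (h.trans (map_one _).symm))))
  rw [Module.finrank_fin_fun] at hPd
  have hPA : aeval (A : Matrix (Fin i) (Fin i) F) P = 0 := by
    refine (Matrix.toLinAlgEquiv').injective ?_
    rw [map_zero, ← aeval_algHom_apply]
    exact hP0
  have hP1 : P.eval 1 ≠ 0 := by
    intro h
    obtain ⟨c, hc⟩ := dvd_iff_isRoot.2 (show IsRoot P 1 from h)
    have hu : IsUnit c := (hP.isUnit_or_isUnit hc).resolve_left (not_isUnit_X_sub_C 1)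
    refine hA1 (Units.ext ?_)
    have h3 := hPA
    rw [hc, map_mul] at h3
    have h4 := (hu.map (aeval (A : Matrix (Fin i) (Fin i) F))).mul_left_eq_zero.1 h3
    simp [sub_eq_zero] at h4
    rw [h4, Units.val_one]
  have hPm1 : P.eval (-1) ≠ 0 ∨ (2 : F) = 0 := by
    refine or_iff_not_imp_right.2 fun h2 => ?_
    intro h
    obtain ⟨c, hc⟩ := dvd_iff_isRoot.2 (show IsRoot P (-1) from h)
    have hu : IsUnit c := (hP.isUnit_or_isUnit hc).resolve_left (not_isUnit_X_sub_C (-1))
    have h3 := hPA
    rw [hc, map_mul] at h3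
    have h4 := (hu.map (aeval (A : Matrix (Fin i) (Fin i) F))).mul_left_eq_zero.1 h3
    simp [← eq_neg_iff_add_eq_zero] at h4
    have h5 := congrArg (fun t : GL (Fin i) F => (t : Matrix (Fin i) (Fin i) F) ⟨0, hi0⟩ ⟨0, hi0⟩) hAr
    simp [Units.val_pow_eq_pow_val, h4, ((Fact.out : r.Prime).odd_of_ne_two hr2).neg_pow] at h5
    exact h2 (by linear_combination -h5)
  let ε : Fin i ⊕ Fin (d - i) ≃ Fin d := finSumFinEquiv.trans (finCongr (by omega))
  let R := Matrix.reindexAlgEquiv F F ε
  set M : Matrix (Fin d) (Fin d) F := R (Matrix.fromBlocks (A : Matrix (Fin i) (Fin i) F) 0 0 1) with hM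
  set M' : Matrix (Fin d) (Fin d) F :=
    R (Matrix.fromBlocks ((A⁻¹ : GL (Fin i) F) : Matrix (Fin i) (Fin i) F) 0 0 1) with hM'
  have hMM' : M * M' = 1 := by
    rw [hM, hM', ← map_mul, Matrix.fromBlocks_multiply]
    simp
  have hM'M : M' * M = 1 := mul_eq_one_comm.1 hMM'
  have hMr : M ^ r = 1 := by
    rw [hM, ← map_pow, Matrix.fromBlocks_diagonal_pow, ← Units.val_pow_eq_pow_val, hAr, Units.val_one, one_pow,
      Matrix.fromBlocks_one, map_one]
  have hM'r : M' ^ r = 1 := by
    rw [hM', ← map_pow, Matrix.fromBlocks_diagonal_pow, ← Units.val_pow_eq_pow_val, inv_pow, hAr, inv_one,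
      Units.val_one, one_pow, Matrix.fromBlocks_one, map_one]
  set X0 : Matrix κ κ F := Matrix.fromBlocks M 0 0 M'ᵀ with hX0
  have hXr : X0 ^ r = 1 := by
    rw [hX0, Matrix.fromBlocks_diagonal_pow, hMr, ← Matrix.transpose_pow, hM'r, Matrix.transpose_one,
      Matrix.fromBlocks_one]
  let x : GL κ F := Units.ofPowEqOne X0 r hXr (Fact.out : r.Prime).ne_zero
  have hx : x ∈ Cfsg.spGL d F := SympFormStd.mem_spGL.2 ((Symp.mem_symplecticGroup_iff_form _).1 (by
    rw [SymplecticGroup.mem_iff']
    show X0ᵀ * _ * X0 = _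
    simp only [hX0, Matrix.J, Matrix.fromBlocks_transpose, Matrix.fromBlocks_multiply, Matrix.transpose_zero,
      Matrix.transpose_transpose, mul_zero, zero_mul, zero_add, add_zero, mul_neg, mul_one, neg_mul]
    rw [← Matrix.transpose_mul, hM'M, Matrix.transpose_one, neg_zero]))
  have hker : ∀ u : κ → F, aeval X0 P *ᵥ u = 0 ↔ (∀ k, ε.symm k ∉ Set.range Sum.inl → u (Sum.inl k) = 0) ∧
      ∀ k, u (Sum.inr k) = 0 := by
    have hblock : ∀ Q : F[X], aeval X0 Q = Matrix.fromBlocks (aeval M Q) 0 0 (aeval M' Q)ᵀ := by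
      intro Q
      induction Q using Polynomial.induction_on with
      | C c =>
        simp [Algebra.algebraMap_eq_smul_one, ← Matrix.fromBlocks_one, Matrix.fromBlocks_smul]
      | add p q hp hq => simp [hp, hq, Matrix.fromBlocks_add]
      | monomial n c ih =>
        have hc : aeval M' (C c * Polynomial.X ^ n) * M' = M' * aeval M' (C c * Polynomial.X ^ n) := by
          have h5 := ((Commute.all (Polynomial.X : F[X]) (C c * Polynomial.X ^ n)).map (aeval M')).eq
          rw [aeval_X] at h5
          exact h5.symm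
        rw [pow_succ, ← mul_assoc, map_mul, map_mul (aeval M), map_mul (aeval M'), aeval_X, aeval_X, aeval_X, ih, hX0,
          Matrix.fromBlocks_multiply, hc, Matrix.transpose_mul]
        simp
    have hblock2 : ∀ (B : Matrix (Fin i) (Fin i) F) (Q : F[X]),
        aeval (R (Matrix.fromBlocks B 0 0 1)) Q = R (Matrix.fromBlocks (aeval B Q) 0 0 (Q.eval 1 • 1)) := by
      intro B Q
      rw [aeval_algHom_apply]
      congr 1
      induction Q using Polynomial.induction_on with
      | C c => simp [Algebra.algebraMap_eq_smul_one, ← Matrix.fromBlocks_one, Matrix.fromBlocks_smul]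
      | add p q hp hq => simp [hp, hq, Matrix.fromBlocks_add, add_smul]
      | monomial n c ih =>
        rw [pow_succ, ← mul_assoc, map_mul, map_mul (aeval B), aeval_X, aeval_X, ih, Matrix.fromBlocks_multiply]
        simp
    intro u
    rw [hblock, hM, hM', hblock2, hblock2, hPA, Matrix.fromBlocks_mulVec]
    have hdet : IsUnit (R (Matrix.fromBlocks (aeval ((A⁻¹ : GL (Fin i) F) : Matrix (Fin i) (Fin i) F) P) 0 0
        (P.eval 1 • 1)))ᵀ := by
      rw [Matrix.isUnit_iff_isUnit_det, Matrix.det_transpose]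
      show IsUnit (Matrix.reindex ε ε _).det
      rw [Matrix.det_reindex_self, Matrix.det_fromBlocks_zero₂₁, Matrix.det_smul, Matrix.det_one, mul_one]
      refine IsUnit.mul ?_ ((isUnit_iff_ne_zero.2 hP1).pow _)
      refine isUnit_iff_ne_zero.2 fun h0 => ?_
      obtain ⟨w, hw, hw0⟩ := Matrix.exists_mulVec_eq_zero_iff.2 h0
      rcases Tensor.eval_eq_zero_of_reciprocal hP (hPd ▸ hodd) (x := (A : Matrix (Fin i) (Fin i) F))
        (y := ((A⁻¹ : GL (Fin i) F) : Matrix (Fin i) (Fin i) F)) (Units.inv_mul A) hw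
        (by rw [hPA, Matrix.zero_mulVec]) hw0 with h | h
      · exact hP1 h
      · rcases hPm1 with h5 | h5
        · exact h5 h
        · exact hP1 (by rwa [show (-1 : F) = 1 by linear_combination -h5] at h)
    simp only [Matrix.zero_mulVec, add_zero, zero_add]
    have htop : R (Matrix.fromBlocks (0 : Matrix (Fin i) (Fin i) F) 0 0 (P.eval 1 • 1)) *ᵥ (u ∘ Sum.inl) =
        fun k => Sum.elim (fun _ => (0 : F)) (fun _ => P.eval 1) (ε.symm k) * u (Sum.inl k) := by
      have : R (Matrix.fromBlocks (0 : Matrix (Fin i) (Fin i) F) 0 0 (P.eval 1 • 1)) =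
          Matrix.diagonal (fun k => Sum.elim (fun _ => (0 : F)) (fun _ => P.eval 1) (ε.symm k)) := by
        ext k l
        obtain ⟨k, rfl⟩ := ε.surjective k
        obtain ⟨l, rfl⟩ := ε.surjective l
        rcases k with k | k <;> rcases l with l | l <;>
          simp [R, Matrix.diagonal_apply, Matrix.one_apply]
      rw [this]; exact funext fun k => Matrix.mulVec_diagonal _ _ _
    rw [htop]
    constructor
    · intro h
      refine ⟨fun k hk => ?_, fun k => ?_⟩
      · have h' := congrFun h (Sum.inl k)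
        simp only [Sum.elim_inl, Pi.zero_apply] at h'
        rcases hs : ε.symm k with l | l
        · exact absurd ⟨l, hs.symm⟩ hk
        · rw [hs] at h'
          simpa [hP1] using h'
      · have h'' := congrArg (fun f : κ → F => f ∘ Sum.inr) h
        simp only [Sum.elim_comp_inr] at h''
        exact congrFun (Matrix.mulVec_injective_iff_isUnit.2 hdet
          (h''.trans (Matrix.mulVec_zero _).symm)) k
    · rintro ⟨h1, h3⟩
      have hr0 : u ∘ Sum.inr = 0 := funext h3
      rw [hr0, Matrix.mulVec_zero]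
      funext k
      rcases k with k | k
      · simp only [Sum.elim_inl, Pi.zero_apply]
        rcases hs : ε.symm k with l | l
        · simp
        · rw [h1 k (by rw [hs]; rintro ⟨m, hm⟩; cases hm)]; simp
      · simp
  refine ⟨x, hx, Units.ext hXr, fun h => hA1 ?_, ?_, P, ?_⟩
  · have h' : X0 = 1 := congrArg (fun t : GL κ F => (t : Matrix κ κ F)) h
    rw [hX0, ← Matrix.fromBlocks_one, Matrix.fromBlocks_inj] at h'
    have : Matrix.fromBlocks (A : Matrix (Fin i) (Fin i) F) 0 0 1 = 1 := R.injective (h'.1.trans (map_one R).symm)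
    rw [← Matrix.fromBlocks_one, Matrix.fromBlocks_inj] at this
    exact Units.ext this.1
  · set e : Fin i ⊕ Fin i → κ := Sum.map (ε ∘ Sum.inl) (ε ∘ Sum.inl) with he
    have hfac : X0 - 1 = (X0 - 1).submatrix id e * (1 : Matrix κ κ F).submatrix e id := by
      have heinj : Function.Injective e :=
        Function.Injective.sumMap (ε.injective.comp Sum.inl_injective) (ε.injective.comp Sum.inl_injective)
      ext a b
      simp only [Matrix.mul_apply, Matrix.submatrix_apply, id_eq, Matrix.one_apply, mul_ite, mul_one, mul_zero]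
      by_cases hb : ∃ t, e t = b
      · obtain ⟨t, rfl⟩ := hb
        rw [Finset.sum_eq_single t (fun s _ hs => if_neg fun h => hs (heinj h)) (fun h => absurd (Finset.mem_univ t) h),
          if_pos rfl]
      · rw [Finset.sum_eq_zero fun s _ => if_neg fun h => hb ⟨s, h⟩]
        rcases b with b | b <;> obtain ⟨b, rfl⟩ := ε.surjective b <;> rcases b with b | b
        · exact absurd ⟨Sum.inl b, rfl⟩ hb
        · rcases a with a | a <;> obtain ⟨a, rfl⟩ := ε.surjective a <;> rcases a with a | a <;>
            simp [hX0, hM, hM', R, Matrix.one_apply]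
        · exact absurd ⟨Sum.inr b, rfl⟩ hb
        · rcases a with a | a <;> obtain ⟨a, rfl⟩ := ε.surjective a <;> rcases a with a | a <;>
            simp [hX0, hM, hM', R, Matrix.one_apply, eq_comm]
    show (X0 - 1).rank ≤ 2 * i
    rw [hfac]
    refine (Matrix.rank_mul_le_right _ _).trans ((Matrix.rank_le_card_height _).trans (le_of_eq ?_))
    simp [two_mul]
  · let W := LinearMap.ker (aeval X0 P).mulVecLin
    show Module.finrank F W = i
    let e : W ≃ₗ[F] (Fin i → F) :=
      { toFun := fun w k => w.1 (Sum.inl (ε (Sum.inl k)))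
        invFun := fun v => ⟨Sum.elim (fun k => Sum.elim v (fun _ => 0) (ε.symm k)) 0, by
          rw [LinearMap.mem_ker, Matrix.mulVecLin_apply, hker]
          refine ⟨fun k hk => ?_, fun k => rfl⟩
          simp only [Sum.elim_inl]
          rcases hs : ε.symm k with l | l
          · exact absurd ⟨l, hs.symm⟩ hk
          · rfl⟩
        map_add' := fun _ _ => rfl
        map_smul' := fun _ _ => rfl
        left_inv := fun w => by
          obtain ⟨w, hw⟩ := w
          rw [LinearMap.mem_ker, Matrix.mulVecLin_apply, hker] at hw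
          refine Subtype.ext (funext fun k => ?_)
          rcases k with k | k
          · simp only [Sum.elim_inl]
            rcases hs : ε.symm k with l | l
            · rw [show k = ε (Sum.inl l) by rw [← hs]; simp]
              simp
            · exact (hw.1 k (by rw [hs]; rintro ⟨m, hm⟩; cases hm)).symm
          · exact (hw.2 k).symm
        right_inv := fun v => by funext k; simp }
    rw [e.finrank_eq, Module.finrank_fin_fun]

end CfsgLib.Classical.PrimeDerangement
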