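import Cfsg.Agent.Classical.Linear.Card
import Cfsg.Agent.Classical.Unitary.Order
import Cfsg.Prelude.Def_GeometricClasses

/-!
Orders of the determinant-one subgroups of `GL n` and `GU n`, and roots of unity in the norm one group.
-/

set_option autoImplicit false

namespace CfsgLib.Classical.PrimeDerangement

open Cfsg

variable {F : Type*} [Field F]

theorem natCard_specialLinear (n : ℕ) :
    Nat.card ↥(Cfsg.Geo.specialLinear (Fin n) F) = Nat.card (Matrix.SpecialLinearGroup (Fin n) F) := by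
  rw [Cfsg.Geo.specialLinear, ← CfsgLib.Classical.Linear.range_toGL_eq_ker_det]
  exact (Nat.card_congr (MonoidHom.ofInjective Matrix.SpecialLinearGroup.toGL_injective).toEquiv).symm

theorem natCard_GU_inf_specialLinear [Fintype F] (n q : ℕ) :
    Nat.card ↥(GU n F q ⊓ Cfsg.Geo.specialLinear (Fin n) F) = Nat.card ↥(SU n F q) := by
  rw [Nat.card_congr (MonoidHom.ofInjective CfsgLib.Unitary.suToGU_injective).toEquiv,
    CfsgLib.Unitary.range_suToGU, Cfsg.Geo.specialLinear, ← Subgroup.inf_subgroupOf_left]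
  exact Nat.card_congr (Subgroup.subgroupOfEquivOfLe inf_le_left).symm.toEquiv

theorem natCard_specialLinear_three [Fintype F] :
    Nat.card ↥(Cfsg.Geo.specialLinear (Fin 3) F) =
      (Fintype.card F ^ 3 - 1) * (Fintype.card F ^ 3 - Fintype.card F) * Fintype.card F ^ 2 := by
  have h := CfsgLib.Classical.Linear.card_sl (F := F) 3 (by norm_num)
  rw [Fin.prod_univ_three] at h
  have h1 : 1 < Fintype.card F := Fintype.one_lt_card
  rw [natCard_specialLinear]
  refine Nat.eq_of_mul_eq_mul_left (show 0 < Fintype.card F - 1 by omega) (h.trans ?_)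
  have h2 : Fintype.card F ^ 3 - Fintype.card F ^ 2 = Fintype.card F ^ 2 * (Fintype.card F - 1) := by
    rw [Nat.mul_sub, mul_one, pow_succ]
  simp only [Fin.val_zero, Fin.val_one, Fin.val_two, pow_zero, pow_one, h2]
  ring

theorem natCard_GU_inf_specialLinear_three [Fintype F] {q : ℕ} (hF : Fintype.card F = q ^ 2) :
    Nat.card ↥(GU 3 F q ⊓ Cfsg.Geo.specialLinear (Fin 3) F) = q ^ 3 * (q ^ 2 - 1) * (q ^ 3 + 1) := by
  have h := CfsgLib.Unitary.card_SU hF 3 (by norm_num)
  rw [Finset.prod_range_succ, Finset.prod_range_succ, Finset.prod_range_one] at h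
  rw [natCard_GU_inf_specialLinear]
  refine Nat.eq_of_mul_eq_mul_left (show 0 < q + 1 by omega) (h.trans ?_)
  norm_num [show ¬ Even 1 by decide]
  ring

theorem exists_primitive_of_dvd [Finite F] {d : ℕ} (hd : d ∣ Nat.card Fˣ) : ∃ x : Fˣ, IsPrimitiveRoot x d := by
  obtain ⟨g, hg⟩ := IsCyclic.exists_ofOrder_eq_natCard (α := Fˣ)
  have hc : 0 < Nat.card Fˣ := Nat.card_pos
  obtain ⟨k, hk⟩ := hd
  exact ⟨g ^ k, (hg ▸ IsPrimitiveRoot.orderOf g).pow hc (hk.trans (mul_comm _ _))⟩

end CfsgLib.Classical.PrimeDerangement
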