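import Cfsg.Agent.Classical.PrimeDerangement.TensorCyclic
import Cfsg.Agent.Classical.Semisimple.SympModel
import Cfsg.Agent.Classical.Symp.Involutions
import Cfsg.Agent.Classical.SympFormStd

/-!
Elements of prime order of symplectic groups and the stabilisers of decompositions `Sp_a ⊗ O_b`.
-/

set_option autoImplicit false
set_option maxHeartbeats 800000

namespace CfsgLib.Classical.PrimeDerangement.SpTensor

open Matrix Polynomial CfsgLib.Classical.PrimeDerangement.Tensor
open scoped Kronecker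

variable {F : Type*} [Field F] {d : ℕ}

local notation "κ" => (Fin d ⊕ Fin d)
local notation "Sp" => Matrix.symplecticGroup (Fin d) F

/-- An element of `spGL` in the symplectic group. -/
def toSp {g : GL κ F} (hg : g ∈ Cfsg.spGL d F) : Sp :=
  ⟨(g : Matrix κ κ F), (Symp.mem_symplecticGroup_iff_form _).2 (SympFormStd.mem_spGL.1 hg)⟩

/-- An element of the symplectic group as an invertible matrix. -/
noncomputable def ofSp : Sp →* GL κ F := (Matrix.symplecticGroup (Fin d) F).subtype.toHomUnits

theorem coe_ofSp (g : Sp) : ((ofSp g : GL κ F) : Matrix κ κ F) = (g : Matrix κ κ F) := rfl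

theorem ofSp_mem (g : Sp) : ofSp g ∈ Cfsg.spGL d F :=
  SympFormStd.mem_spGL.2 fun u v => Symp.form_mulVec g u v

theorem exists_conj_of_isConj {x t : GL κ F} (hx : x ∈ Cfsg.spGL d F) (ht : t ∈ Cfsg.spGL d F)
    (h : IsConj (toSp ht) (toSp hx)) : ∃ g ∈ Cfsg.spGL d F, g⁻¹ * x * g = t := by
  obtain ⟨c, hc⟩ := isConj_iff.1 h
  refine ⟨ofSp c, ofSp_mem c, ?_⟩
  have e : ofSp (toSp hx) = x := Units.ext rfl
  have e' : ofSp (toSp ht) = t := Units.ext rfl
  rw [← e, ← hc, map_mul, map_mul, map_inv, e']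
  group

theorem sq_eq_one_of_scalar (hd : 0 < d) {x : GL κ F} (hx : x ∈ Cfsg.spGL d F) {c : F}
    (hc : (x : Matrix κ κ F) = c • 1) : c * c = 1 := by
  have h := SympFormStd.mem_spGL.1 hx (Symp.stdE ⟨0, hd⟩) (Symp.stdF ⟨0, hd⟩)
  rw [hc, Matrix.smul_mulVec, Matrix.smul_mulVec, Matrix.one_mulVec, Matrix.one_mulVec, Symp.form_smul_left,
    Symp.form_smul_right, Symp.form_stdE_stdF, if_pos rfl] at h
  linear_combination h

theorem rank_sub_one (M : Matrix κ κ F) :
    (M - 1).rank + Module.finrank F (Semisimple.AltIsometry.fixed (Matrix.toLin' M)) = 2 * d := by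
  have h1 := LinearMap.finrank_range_add_finrank_ker (M - 1).mulVecLin
  have e : (M - 1).mulVecLin = Matrix.toLin' M - (1 : F) • 1 := by
    refine LinearMap.ext fun v => ?_
    simp [Matrix.sub_mulVec]
  rw [Semisimple.SympModel.finrank_space] at h1
  rw [← h1, Semisimple.AltIsometry.fixed]
  unfold Matrix.rank
  rw [e]

section odd

variable [Fintype F] {r : ℕ} [Fact r.Prime]

theorem orderOf_half_le (hr2 : r ≠ 2) (hrF : (r : F) ≠ 0) (hdvd : r ∣ Nat.card (Cfsg.spGL d F)) :
    ∃ h, h ≤ d ∧ 2 * h = if Even (orderOf (Fintype.card F : ZMod r)) then orderOf (Fintype.card F : ZMod r)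
      else 2 * orderOf (Fintype.card F : ZMod r) := by
  set i := orderOf (Fintype.card F : ZMod r) with hi
  have hcard : Nat.card (Cfsg.spGL d F) = Nat.card Sp :=
    Nat.card_congr ⟨fun g => toSp g.2, fun g => ⟨ofSp g, ofSp_mem g⟩, fun g => Subtype.ext (Units.ext rfl),
      fun g => Subtype.ext rfl⟩
  rw [hcard, Symp.card_symplecticGroup] at hdvd
  obtain ⟨j, hj, hj'⟩ : ∃ j < d, i ∣ 2 * (j + 1) := by
    rcases (Fact.out : r.Prime).dvd_mul.1 hdvd with h | h
    · exfalso
      have h2 := (Fact.out : r.Prime).dvd_of_dvd_pow h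
      exact Semisimple.card_ne_zero_mod hrF ((ZMod.natCast_eq_zero_iff _ _).2 h2)
    · obtain ⟨j, hj, hj'⟩ := (Nat.Prime.prime (Fact.out : r.Prime)).exists_mem_finset_dvd h
      exact ⟨j, Finset.mem_range.1 hj, (Semisimple.dvd_pow_sub_one_iff_orderOf_dvd _).1 hj'⟩
  by_cases hev : Even i
  · obtain ⟨h, hh⟩ := hev
    refine ⟨h, ?_, by rw [if_pos ⟨h, hh⟩]; omega⟩
    have := Nat.le_of_dvd (by omega) hj'
    omega
  · refine ⟨i, ?_, by rw [if_neg hev]⟩
    have : i ∣ j + 1 :=
      (Nat.Coprime.dvd_mul_left ((Nat.coprime_two_right).2 (Nat.not_even_iff_odd.1 hev))).1 hj'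
    have := Nat.le_of_dvd (by omega) this
    omega

/-- A tensor square of an element of odd order with one orbit of odd length is not symplectic. -/
theorem not_double_orbit {b : ℕ} (e : κ ≃ Fin 2 × Fin b) {U x : GL κ F} (hx : x ∈ Cfsg.spGL d F)
    (hr2 : r ≠ 2) (hrF : (r : F) ≠ 0) {h' : Matrix (Fin b) (Fin b) F} (hr : h' ^ r = 1)
    (hrank : (h' - 1).rank = orderOf (Fintype.card F : ZMod r))
    (hodd : Odd (orderOf (Fintype.card F : ZMod r)))
    (hU : ((coord e U x : GL (Fin 2 × Fin b) F) : Matrix (Fin 2 × Fin b) (Fin 2 × Fin b) F) =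
      (1 : Matrix (Fin 2) (Fin 2) F) ⊗ₖ h') : False := by
  classical
  set g : Module.End F (Fin b → F) := Matrix.toLinAlgEquiv' h' with hg
  have hgr : g ^ r = 1 := by rw [hg, ← map_pow, hr, map_one]
  set W := LinearMap.range (g - (1 : F) • 1) with hW
  have hWdim : Module.finrank F W = orderOf (Fintype.card F : ZMod r) := by
    rw [← hrank, hW, show g - (1 : F) • 1 = (h' - 1).mulVecLin from LinearMap.ext fun v => by
      simp [hg, Matrix.sub_mulVec]]
    rfl
  have hWinv : W.map g ≤ W := by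
    have := Semisimple.range_map_le g (X - 1 : F[X])
    simpa [hW] using this
  have hcyc : ∀ v ∈ W, aeval g (cyclotomic r F) v = 0 := by
    rintro _ ⟨y, rfl⟩
    have hX : g - (1 : F) • 1 = aeval g (X - 1 : F[X]) := by simp
    rw [hX, ← Module.End.mul_apply, ← map_mul, cyclotomic_prime_mul_X_sub_one]
    simp [hgr]
  have hWne : W ≠ ⊥ := fun h => by
    rw [h, finrank_bot] at hWdim
    have := Semisimple.orderOf_card_pos (F := F) (r := r) hrF
    omega
  obtain ⟨v, hv, hv0⟩ := Submodule.exists_mem_ne_zero_of_ne_bot hWne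
  obtain ⟨P, hP, hPd, w, hw, hw0, hPw⟩ :=
    Semisimple.exists_irreducible_factor_apply_eq_zero hWinv (cyclotomic_ne_zero r F) hv hv0 (hcyc v hv)
  have hdeg := Semisimple.natDegree_of_dvd_cyclotomic hrF hP hPd
  obtain ⟨W0, -, -, hW0d, hW0le, hW0k⟩ := Semisimple.exists_invariant_of_aeval_apply_eq_zero hP hw0 hPw
  have hW0 : W0 = W := Submodule.eq_of_le_of_finrank_eq (hW0le W hWinv hw) (by rw [hW0d, hWdim, hdeg])
  -- the polynomial `(X - 1) P` kills `x`
  have hkill : ∀ v : Fin b → F, aeval h' P *ᵥ ((h' - 1) *ᵥ v) = 0 := by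
    intro v
    have h1 : (g - (1 : F) • 1) v ∈ LinearMap.ker (aeval g P) := hW0k (hW0 ▸ LinearMap.mem_range_self _ v)
    rw [LinearMap.mem_ker, hg, aeval_algHom_apply, one_smul,
      show Matrix.toLinAlgEquiv' h' - 1 = Matrix.toLinAlgEquiv' (h' - 1) by rw [map_sub, map_one]] at h1
    rw [Matrix.toLinAlgEquiv'_apply, Matrix.toLinAlgEquiv'_apply] at h1
    exact h1
  set K := ((coord e U x : GL (Fin 2 × Fin b) F) : Matrix (Fin 2 × Fin b) (Fin 2 × Fin b) F) with hK
  let Φ : Matrix κ κ F ≃ₐ[F] Matrix (Fin 2 × Fin b) (Fin 2 × Fin b) F := Matrix.reindexAlgEquiv F F e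
  let Cm : Matrix κ κ F := ((U⁻¹ : GL κ F) : Matrix κ κ F) * (x : Matrix κ κ F) * (U : Matrix κ κ F)
  have hΦ : Φ Cm = (1 : Matrix (Fin 2) (Fin 2) F) ⊗ₖ h' := (coord_coe e U x).symm.trans hU
  have hQK : aeval ((1 : Matrix (Fin 2) (Fin 2) F) ⊗ₖ h') (P * (X - 1)) = 0 := by
    let ψ : Matrix (Fin b) (Fin b) F →ₐ[F] Matrix (Fin 2 × Fin b) (Fin 2 × Fin b) F :=
      { toFun := fun M => (1 : Matrix (Fin 2) (Fin 2) F) ⊗ₖ M
        map_one' := Matrix.one_kronecker_one
        map_mul' := fun M N => by rw [← Matrix.mul_kronecker_mul, one_mul]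
        map_zero' := by simp
        map_add' := fun M N => Matrix.kronecker_add _ _ _
        commutes' := fun c => by
          rw [Algebra.algebraMap_eq_smul_one, Algebra.algebraMap_eq_smul_one, Matrix.kronecker_smul,
            Matrix.one_kronecker_one] }
    show aeval (ψ h') (P * (X - 1)) = 0
    rw [aeval_algHom_apply, map_mul, show aeval h' (X - 1 : F[X]) = h' - 1 by simp]
    have : aeval h' P * (h' - 1) = 0 := Matrix.mulVec_injective (funext fun v => by
      rw [← Matrix.mulVec_mulVec, hkill, Matrix.zero_mulVec])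
    rw [this, map_zero]
  have hQC : aeval Cm (P * (X - 1)) = 0 := by
    refine Φ.injective ?_
    rw [map_zero, ← aeval_algHom_apply, hΦ, hQK]
  have hQx : aeval (x : Matrix κ κ F) (P * (X - 1)) = 0 := by
    have hconj : ∀ Q : F[X], aeval Cm Q =
        ((U⁻¹ : GL κ F) : Matrix κ κ F) * aeval (x : Matrix κ κ F) Q * (U : Matrix κ κ F) := by
      intro Q
      induction Q using Polynomial.induction_on' with
      | add p q hp hq => rw [map_add, map_add, hp, hq, mul_add, add_mul]
      | monomial k c =>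
        rw [aeval_monomial, aeval_monomial, Algebra.algebraMap_eq_smul_one, Matrix.smul_mul, one_mul,
          Matrix.smul_mul, one_mul, Matrix.mul_smul, Matrix.smul_mul]
        congr 1
        show (((U⁻¹ : GL κ F) : Matrix κ κ F) * (x : Matrix κ κ F) * (U : Matrix κ κ F)) ^ k = _
        rw [← Units.val_mul, ← Units.val_mul, ← Units.val_pow_eq_pow_val, ← Units.val_pow_eq_pow_val,
          ← Units.val_mul, ← Units.val_mul]
        congr 1
        conv_lhs => rw [show U⁻¹ * x * U = U⁻¹ * x * (U⁻¹)⁻¹ by rw [inv_inv], conj_pow, inv_inv]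
    have := congrArg (fun M => (U : Matrix κ κ F) * M * ((U⁻¹ : GL κ F) : Matrix κ κ F)) (hconj (P * (X - 1)))
    simp only [hQC, mul_assoc, mul_zero, Units.mul_inv, mul_one, Units.mul_inv_cancel_left, zero_mul] at this
    exact this.symm
  -- a vector killed at `x⁻¹`
  set y := ((x⁻¹ : GL κ F) : Matrix κ κ F) with hy
  have hyx : y * (x : Matrix κ κ F) = 1 := Units.inv_mul x
  have hsing : (aeval (x : Matrix κ κ F) P).det = 0 := by
    have hh : (aeval h' P).det = 0 := by
      refine Matrix.exists_mulVec_eq_zero_iff.1 ⟨w, hw0, ?_⟩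
      have h1 : aeval g P w = 0 := hPw
      rw [hg, aeval_algHom_apply] at h1
      simpa using h1
    by_contra hne
    have hu : IsUnit (aeval (x : Matrix κ κ F) P) := (Matrix.isUnit_iff_isUnit_det _).2 (isUnit_iff_ne_zero.2 hne)
    have h2 : (h' - 1) = 0 := by
      have e1 : (x : Matrix κ κ F) - 1 = 0 := by
        rw [map_mul, show aeval (x : Matrix κ κ F) (X - 1 : F[X]) = (x : Matrix κ κ F) - 1 by simp] at hQx
        exact hu.mul_right_eq_zero.1 hQx
      have hx1 : x = 1 := Units.ext (by rw [Units.val_one]; exact sub_eq_zero.1 e1)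
      rw [hK, hx1, map_one, Units.val_one] at hU
      refine sub_eq_zero.2 (Matrix.ext fun j j' => ?_)
      have := congrFun (congrFun hU ((0 : Fin 2), j)) ((0 : Fin 2), j')
      simpa [Matrix.one_apply] using this.symm
    rw [h2, Matrix.rank_zero] at hrank
    have := Semisimple.orderOf_card_pos (F := F) (r := r) hrF
    omega
  have hJ : (x : Matrix κ κ F)ᵀ * Matrix.J (Fin d) F * (x : Matrix κ κ F) = Matrix.J (Fin d) F :=
    SymplecticGroup.mem_iff'.1 (toSp hx).2
  have hyJ : Matrix.J (Fin d) F * y = (x : Matrix κ κ F)ᵀ * Matrix.J (Fin d) F := by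
    conv_lhs => rw [← hJ, mul_assoc, Units.mul_inv, mul_one]
  have hsing' : (aeval y P).det = 0 := by
    have key : ∀ Q : F[X], Matrix.J (Fin d) F * aeval y Q = (aeval (x : Matrix κ κ F) Q)ᵀ * Matrix.J (Fin d) F := by
      intro Q
      induction Q using Polynomial.induction_on with
      | C c => simp [Algebra.algebraMap_eq_smul_one]
      | add p q hp hq => rw [map_add, map_add, mul_add, hp, hq, Matrix.transpose_add, add_mul]
      | monomial n c ih =>
        rw [pow_succ, ← mul_assoc, map_mul, map_mul (aeval (x : Matrix κ κ F)), aeval_X, aeval_X, ← mul_assoc, ih,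
          mul_assoc, hyJ, ← mul_assoc, ← Matrix.transpose_mul,
          show (x : Matrix κ κ F) * aeval (x : Matrix κ κ F) (C c * X ^ n) =
            aeval (x : Matrix κ κ F) (C c * X ^ n) * (x : Matrix κ κ F) from by
              have h5 := ((Commute.all (X : F[X]) (C c * X ^ n)).map (aeval (x : Matrix κ κ F))).eq
              rwa [aeval_X] at h5]
    have hk := congrArg Matrix.det (key P)
    rw [Matrix.det_mul, Matrix.det_mul, Matrix.det_transpose, hsing, zero_mul] at hk
    exact (mul_eq_zero.1 hk).resolve_left (Matrix.isUnit_det_J (Fin d) F).ne_zero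
  obtain ⟨u₀, hu₀, hu₀'⟩ := Matrix.exists_mulVec_eq_zero_iff.2 hsing'
  have hP1 : P.eval 1 ≠ 0 := by
    intro h
    have h1 : (cyclotomic r F).eval 1 = 0 := eval_eq_zero_of_dvd_of_eval_eq_zero hPd h
    rw [eval_one_cyclotomic_prime] at h1
    exact hrF h1
  set u := ((x : Matrix κ κ F) - 1) *ᵥ u₀ with hu
  have hune : u ≠ 0 := by
    intro h
    rw [hu, Matrix.sub_mulVec, Matrix.one_mulVec, sub_eq_zero] at h
    have hyu : y *ᵥ u₀ = u₀ := by
      conv_lhs => rw [← h, Matrix.mulVec_mulVec, hyx, Matrix.one_mulVec]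
    have : ∀ Q : F[X], aeval y Q *ᵥ u₀ = Q.eval 1 • u₀ := by
      intro Q
      induction Q using Polynomial.induction_on with
      | C c => simp [Algebra.algebraMap_eq_smul_one, Matrix.smul_mulVec]
      | add p q hp hq => simp [Matrix.add_mulVec, hp, hq, add_smul]
      | monomial n c ih =>
        rw [pow_succ, ← mul_assoc, map_mul, aeval_X, ← Matrix.mulVec_mulVec, hyu, ih]
        simp
    rw [this] at hu₀'
    exact hP1 ((smul_eq_zero.1 hu₀').resolve_right hu₀)
  have h1 : aeval (x : Matrix κ κ F) P *ᵥ u = 0 := by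
    rw [hu, Matrix.mulVec_mulVec, show (x : Matrix κ κ F) - 1 = aeval (x : Matrix κ κ F) (X - 1 : F[X]) by simp,
      ← map_mul, hQx, Matrix.zero_mulVec]
  have h2 : aeval y P *ᵥ u = 0 := by
    have hc : Commute (aeval y P) ((x : Matrix κ κ F) - 1) := by
      have h3 : Commute y (x : Matrix κ κ F) := by rw [Commute, SemiconjBy, hyx, hy, Units.mul_inv]
      refine Commute.sub_right ?_ (Commute.one_right _)
      have h4 : ∀ Q : F[X], Commute (aeval y Q) (x : Matrix κ κ F) := by
        intro Q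
        induction Q using Polynomial.induction_on' with
        | add p q hp hq => rw [map_add]; exact hp.add_left hq
        | monomial n c => rw [aeval_monomial]; exact (Algebra.commute_algebraMap_left c _).mul_left (h3.pow_left n)
      exact h4 P
    rw [hu, Matrix.mulVec_mulVec, hc.eq, ← Matrix.mulVec_mulVec, hu₀', Matrix.mulVec_zero]
  rcases eval_eq_zero_of_reciprocal hP (hdeg.symm ▸ hodd) hyx hune h1 h2 with h | h
  · exact hP1 h
  · have h3 : ((cyclotomic r F) * (X - 1)).eval (-1) = 0 := by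
      rw [eval_mul, eval_eq_zero_of_dvd_of_eval_eq_zero hPd h, zero_mul]
    rw [cyclotomic_prime_mul_X_sub_one] at h3
    simp [((Fact.out : r.Prime).odd_of_ne_two hr2).neg_one_pow] at h3
    have hp : (2 : F) = 0 := by linear_combination -h3
    -- in characteristic two `-1 = 1`
    exact hP1 (by rwa [show (-1 : F) = 1 by linear_combination -hp] at h)

/-- An element of odd prime order outside all conjugates. -/
theorem exists_derangement_odd {a b : ℕ} (ha : Even a) (ha2 : 2 ≤ a) (hb : 3 ≤ b) (hd : 0 < d)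
    (e : κ ≃ Fin a × Fin b) (P : GL κ F) (hr2 : r ≠ 2) (hrF : (r : F) ≠ 0)
    (hdvd : r ∣ Nat.card (Cfsg.spGL d F)) :
    ∃ x ∈ Cfsg.spGL d F, (∃ z : F, ((x ^ r : GL κ F) : Matrix κ κ F) = z • 1) ∧
      (∀ z : F, (x : Matrix κ κ F) ≠ z • 1) ∧
      ∀ g : GL κ F, g⁻¹ * x * g ∉ Cfsg.Geo.tensorProductSubgroup a b e P := by
  classical
  obtain ⟨h, hhd, hh⟩ := orderOf_half_le (d := d) hr2 hrF hdvd
  set i := orderOf (Fintype.card F : ZMod r) with hi
  have hipos : 0 < i := Semisimple.orderOf_card_pos hrF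
  obtain ⟨y, hy, -, hyfix⟩ := Semisimple.SympModel.exists_fpf hr2 hrF hh
  obtain ⟨xs, -, -, hxr, -, -, -, -, -, hdim⟩ :=
    Semisimple.SympModel.exists_model (d := d) (L := 1) (h := h) (by omega) (fun _ => y) (fun _ => hy)
      (fun _ => hyfix)
  set x := ofSp xs with hxdef
  have hx : x ∈ Cfsg.spGL d F := ofSp_mem xs
  have hxr' : x ^ r = 1 := by rw [hxdef, ← map_pow, hxr, map_one]
  have hrank : ((x : Matrix κ κ F) - 1).rank = 2 * h := by
    have := rank_sub_one (x : Matrix κ κ F)
    rw [hxdef, coe_ofSp] at this ⊢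
    omega
  have hh0 : 0 < h := by split_ifs at hh <;> omega
  refine ⟨x, hx, ⟨1, by rw [hxr', Units.val_one, one_smul]⟩, fun z hz => ?_, fun g hg => ?_⟩
  · have hz2 := sq_eq_one_of_scalar hd hx hz
    have hzr := congrArg (fun t : GL κ F => (t : Matrix κ κ F) (Sum.inl ⟨0, hd⟩) (Sum.inl ⟨0, hd⟩)) hxr'
    simp only [Units.val_pow_eq_pow_val, hz, _root_.smul_pow, one_pow, Units.val_one, Matrix.smul_apply,
      Matrix.one_apply_eq, smul_eq_mul, mul_one] at hzr
    obtain ⟨k, hk⟩ := (Fact.out : r.Prime).odd_of_ne_two hr2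
    rw [hk, pow_succ, pow_mul, pow_two, hz2, one_pow, one_mul] at hzr
    rw [hz, hzr, one_smul, sub_self, Matrix.rank_zero] at hrank
    omega
  · obtain ⟨U, A, B, hU⟩ := exists_kron hg
    have hy' : coord e U x ^ r = 1 := by rw [← map_pow, hxr', map_one]
    have hKr : ((A : Matrix (Fin a) (Fin a) F) ⊗ₖ (B : Matrix (Fin b) (Fin b) F)) ^ r = 1 := by
      rw [← hU, ← Units.val_pow_eq_pow_val, hy', Units.val_one]
    have hrk := coord_rank e U x 1
    rw [hU, one_smul, one_smul, hrank] at hrk
    haveI : NeZero a := ⟨by omega⟩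
    haveI : NeZero b := ⟨by omega⟩
    by_cases hA : ∃ t : F, (A : Matrix (Fin a) (Fin a) F) = t • 1
    · obtain ⟨t, ht⟩ := hA
      set h' := t • (B : Matrix (Fin b) (Fin b) F) with hh'
      have hK : (A : Matrix (Fin a) (Fin a) F) ⊗ₖ (B : Matrix (Fin b) (Fin b) F) =
          (1 : Matrix (Fin a) (Fin a) F) ⊗ₖ h' := by rw [ht, hh', Matrix.smul_kronecker, Matrix.kronecker_smul]
      rw [hK] at hKr hrk
      have hh'r : h' ^ r = 1 := by
        rw [kronecker_pow, one_pow] at hKr
        refine Matrix.ext fun j j' => ?_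
        have := congrFun (congrFun hKr ((0 : Fin a), j)) ((0 : Fin a), j')
        simpa [Matrix.kronecker_apply, Matrix.one_apply] using this
      have e3 : (1 : Matrix (Fin a) (Fin a) F) ⊗ₖ h' - 1 = (1 : Matrix (Fin a) (Fin a) F) ⊗ₖ (h' - 1) := by
        ext p p'
        by_cases h1 : p.1 = p'.1 <;> simp [Matrix.kronecker_apply, Matrix.one_apply, Prod.ext_iff, h1]
      rw [e3, rank_one_kronecker] at hrk
      have hdv : i ∣ (h' - 1).rank := by
        have h1 := Semisimple.orderOf_dvd_finrank_range hrF (f := Matrix.toLinAlgEquiv' h')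
          (by rw [← map_pow, hh'r, map_one])
        rwa [show Matrix.toLinAlgEquiv' h' - (1 : F) • 1 = (h' - 1).mulVecLin from
          LinearMap.ext fun v => by simp [Matrix.sub_mulVec]] at h1
      have hne : (h' - 1).rank ≠ 0 := fun h0 => by rw [h0, mul_zero] at hrk; omega
      have hle := Nat.le_of_dvd (by omega) hdv
      have h2i : a * i ≤ 2 * h := hrk ▸ Nat.mul_le_mul_left a hle
      have h2i' : 2 * i ≤ a * i := Nat.mul_le_mul_right i ha2
      have hio : ¬ Even i := fun hev => by rw [if_pos hev] at hh; omega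
      rw [if_neg hio] at hh
      have hai : a = 2 := le_antisymm (Nat.le_of_mul_le_mul_right (by omega) hipos) ha2
      subst hai
      exact not_double_orbit e hx hr2 hrF hh'r (show (h' - 1).rank = i by omega)
        (Nat.not_even_iff_odd.1 hio) (hU.trans hK)
    · push Not at hA
      have h1 := rank_ge _ hA _ ((Matrix.isUnit_iff_isUnit_det _).1 B.isUnit) (1 : F)
      rw [one_smul, hrk] at h1
      have hi1 : i ≠ 1 := fun h1' => by rw [h1', if_neg (by decide)] at hh; omega
      obtain ⟨s, hs0, hs⟩ := kronecker_pow_scalar hKr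
      have hco : (Nat.card Fˣ).Coprime r := by
        refine ((Nat.Prime.coprime_iff_not_dvd (Fact.out : r.Prime)).2 fun hq => hi1 ?_).symm
        rw [Nat.card_eq_fintype_card, Fintype.card_units, ← pow_one (Fintype.card F)] at hq
        exact Nat.eq_one_of_dvd_one ((Semisimple.dvd_pow_sub_one_iff_orderOf_dvd 1).1 hq)
      obtain ⟨β, hβ⟩ := (powCoprime hco).surjective (Units.mk0 s hs0)
      replace hβ : (β : F) ^ r = s := congrArg Units.val hβ
      set A' := ((β⁻¹ : Fˣ) : F) • (A : Matrix (Fin a) (Fin a) F) with hA'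
      set B' := (β : F) • (B : Matrix (Fin b) (Fin b) F) with hB'
      have hAB : (A : Matrix (Fin a) (Fin a) F) ⊗ₖ (B : Matrix (Fin b) (Fin b) F) = A' ⊗ₖ B' := by
        rw [hA', hB', Matrix.smul_kronecker, Matrix.kronecker_smul, smul_smul, Units.inv_mul, one_smul]
      have hA'r : A' ^ r = 1 := by
        rw [hA', _root_.smul_pow, hs, smul_smul, ← hβ, ← mul_pow, Units.inv_mul, one_pow, one_smul]
      have hA'1 : A' ≠ 1 := fun h0 => hA (β : F) (by
        rw [← h0, hA', smul_smul, Units.mul_inv, one_smul])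
      have hBd : IsUnit B'.det := by
        rw [hB', Matrix.det_smul]
        exact IsUnit.mul ((isUnit_iff_ne_zero.2 β.ne_zero).pow _) ((Matrix.isUnit_iff_isUnit_det _).1 B.isUnit)
      rw [hAB] at hKr hrk
      have h2 := rank_ge_of_pow_eq_one hrF hA'r hA'1 B' hBd (1 : F)
      rw [one_smul, hrk] at h2
      have h3 : (i - 1) * 3 ≤ 2 * h := le_trans (Nat.mul_le_mul_left _ hb) h2
      have hio : ¬ Even i := fun hev => by
        rw [if_pos hev] at hh
        obtain ⟨k, hk⟩ := hev
        omega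
      rw [if_neg hio] at hh
      have hi3 : i = 3 := by
        obtain ⟨k, hk⟩ := Nat.not_even_iff_odd.1 hio
        omega
      have hai : i ≤ a := by
        have h4 := Semisimple.orderOf_dvd_finrank_range hrF (f := Matrix.toLinAlgEquiv' A')
          (by rw [← map_pow, hA'r, map_one])
        rw [show Matrix.toLinAlgEquiv' A' - (1 : F) • 1 = (A' - 1).mulVecLin from
          LinearMap.ext fun v => by simp [Matrix.sub_mulVec]] at h4
        have h5 : (A' - 1).rank ≠ 0 := fun h0 => hA'1 (sub_eq_zero.1 (by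
          have : LinearMap.range (A' - 1).mulVecLin = ⊥ := Submodule.finrank_eq_zero.1 h0
          rw [LinearMap.range_eq_bot] at this
          exact Matrix.mulVec_injective (funext fun v => by
            have := LinearMap.congr_fun this v
            simpa [Matrix.sub_mulVec] using this)))
        have h6 := Matrix.rank_le_card_width (A' - 1)
        rw [Fintype.card_fin] at h6
        exact le_trans (Nat.le_of_dvd (Nat.pos_of_ne_zero h5) h4) h6
      by_cases hB'1 : B' = 1
      · have h9 := rank_kronecker_comm A' (1 : Matrix (Fin b) (Fin b) F) (1 : F)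
        rw [one_smul, one_smul] at h9
        rw [hB'1, h9] at hrk
        have e4 : (1 : Matrix (Fin b) (Fin b) F) ⊗ₖ A' - 1 = (1 : Matrix (Fin b) (Fin b) F) ⊗ₖ (A' - 1) := by
          ext p p'
          by_cases h1 : p.1 = p'.1 <;> simp [Matrix.kronecker_apply, Matrix.one_apply, Prod.ext_iff, h1]
        rw [e4, rank_one_kronecker] at hrk
        have h4 := Semisimple.orderOf_dvd_finrank_range hrF (f := Matrix.toLinAlgEquiv' A')
          (by rw [← map_pow, hA'r, map_one])
        rw [show Matrix.toLinAlgEquiv' A' - (1 : F) • 1 = (A' - 1).mulVecLin from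
          LinearMap.ext fun v => by simp [Matrix.sub_mulVec]] at h4
        have h5 : (A' - 1).rank ≠ 0 := fun h0 => by rw [h0, mul_zero] at hrk; omega
        have h6 : i ≤ (A' - 1).rank := Nat.le_of_dvd (Nat.pos_of_ne_zero h5) h4
        have h7 := Nat.mul_le_mul hb h6
        omega
      · have hB'r : B' ^ r = 1 := by
          rw [kronecker_pow, hA'r] at hKr
          refine Matrix.ext fun j j' => ?_
          have := congrFun (congrFun hKr ((0 : Fin a), j)) ((0 : Fin a), j')
          simpa [Matrix.kronecker_apply, Matrix.one_apply] using this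
        have hAd : IsUnit A'.det := by
          rw [hA', Matrix.det_smul]
          exact IsUnit.mul ((isUnit_iff_ne_zero.2 (β⁻¹).ne_zero).pow _) ((Matrix.isUnit_iff_isUnit_det _).1 A.isUnit)
        have h7 := rank_ge_of_pow_eq_one hrF hB'r hB'1 A' hAd (1 : F)
        have h8 := rank_kronecker_comm A' B' (1 : F)
        rw [one_smul, one_smul, hrk] at h8
        rw [one_smul, ← h8, ← hi, hi3] at h7
        obtain ⟨k, hk⟩ := ha
        omega

end odd

end CfsgLib.Classical.PrimeDerangement.SpTensor
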