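import Cfsg.Agent.Classical.PrimeDerangement.SpTensor
import Cfsg.Agent.Eq.Def_GeometricClasses

/-!
Which prime orders are covered by the conjugates of the stabiliser of a decomposition `Sp_a ⊗ O_b`.
-/

set_option autoImplicit false
set_option maxHeartbeats 800000

namespace CfsgLib.Classical.PrimeDerangement.SpTensor

open Matrix CfsgLib.Classical.PrimeDerangement.Tensor
open scoped Kronecker

variable {F : Type*} [Field F] {d a b : ℕ}

local notation "κ" => (Fin d ⊕ Fin d)
local notation "Sp" => Matrix.symplecticGroup (Fin d) F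

theorem rank_sign (s : Finset (Fin d)) (h2 : (2 : F) ≠ 0) :
    (Matrix.diagonal (Sum.elim (fun j => if j ∈ s then (-1 : F) else 1) (fun j => if j ∈ s then (-1 : F) else 1)) -
      (1 : Matrix κ κ F)).rank = 2 * s.card := by
  classical
  have hne : (-1 : F) ≠ 1 := fun h => h2 (by linear_combination -h)
  rw [← Matrix.diagonal_one, Matrix.diagonal_sub, Matrix.rank_diagonal, Fintype.card_subtype,
    show (Finset.univ.filter fun j : κ => Sum.elim (fun j => if j ∈ s then (-1 : F) else 1)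
      (fun j => if j ∈ s then (-1 : F) else 1) j - 1 ≠ 0) = s.disjSum s by
        ext (j | j) <;> by_cases h : j ∈ s <;> simp [h, sub_eq_zero, hne],
    Finset.card_disjSum, two_mul]

theorem rank_conj (x c : GL κ F) :
    (((c * x * c⁻¹ : GL κ F) : Matrix κ κ F) - 1).rank = ((x : Matrix κ κ F) - 1).rank := by
  have : ((c * x * c⁻¹ : GL κ F) : Matrix κ κ F) - 1 =
      (c : Matrix κ κ F) * ((x : Matrix κ κ F) - 1) * ((c⁻¹ : GL κ F) : Matrix κ κ F) := by
    rw [Units.val_mul, Units.val_mul, mul_sub, sub_mul, mul_one, Units.mul_inv]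
  rw [this, Matrix.rank_mul_eq_left_of_isUnit_det _ _ ((Matrix.isUnit_iff_isUnit_det _).1 (c⁻¹).isUnit),
    Matrix.rank_mul_eq_right_of_isUnit_det _ _ ((Matrix.isUnit_iff_isUnit_det _).1 c.isUnit)]

theorem diagonal_of_signPattern {g : Sp} {s : Finset (Fin d)} (h : Symp.IsSignPattern g s) :
    (g : Matrix κ κ F) =
      Matrix.diagonal (Sum.elim (fun j => if j ∈ s then (-1 : F) else 1) (fun j => if j ∈ s then (-1 : F) else 1)) := by
  refine Matrix.ext_of_mulVec_single fun j => ?_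
  rcases j with j | j
  · rw [show (Pi.single (Sum.inl j) 1 : κ → F) = Symp.stdF j from rfl, (h j).2]
    funext k
    rcases k with k | k <;> simp [Symp.stdF, Matrix.mulVec_diagonal, Pi.single_apply, eq_comm]
    split_ifs <;> simp_all
  · rw [show (Pi.single (Sum.inr j) 1 : κ → F) = Symp.stdE j from rfl, (h j).1]
    funext k
    rcases k with k | k <;> simp [Symp.stdE, Matrix.mulVec_diagonal, Pi.single_apply, eq_comm]
    split_ifs <;> simp_all

/-- The rank of `x - 1` of an involution determines its class. -/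
theorem exists_pattern (h2 : (2 : F) ≠ 0) {x : GL κ F} (hx : x ∈ Cfsg.spGL d F) (hxx : x * x = 1) :
    ∃ (g : Sp) (s : Finset (Fin d)), IsConj (toSp hx) g ∧ Symp.IsSignPattern g s ∧
      ((x : Matrix κ κ F) - 1).rank = 2 * s.card := by
  have h1 : toSp hx * toSp hx = 1 := Subtype.ext (congrArg (fun t : GL κ F => (t : Matrix κ κ F)) hxx)
  obtain ⟨h, s, hs⟩ := Symp.exists_signPattern h2 h1
  refine ⟨_, s, isConj_iff.2 ⟨h, rfl⟩, hs, ?_⟩
  rw [← rank_sign s h2, ← diagonal_of_signPattern hs, ← rank_conj x (ofSp h)]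
  have : ofSp (h * toSp hx * h⁻¹) = ofSp h * x * (ofSp h)⁻¹ := by
    rw [map_mul, map_mul, map_inv, show ofSp (toSp hx) = x from Units.ext rfl]
  rw [← this]
  rfl

theorem formOfGram_eq {ν : Type} [Fintype ν] (G : Matrix ν ν F) (x y : ν → F) :
    Cfsg.Geo.formOfGram id G x y = x ⬝ᵥ G *ᵥ y := by
  simp [Cfsg.Geo.formOfGram, dotProduct, Matrix.mulVec, Finset.mul_sum, mul_assoc]

/-- Elements of the symplectic group in the stabiliser. -/
theorem exists_mem_spGL {e : κ ≃ Fin a × Fin b} {P : GL κ F} {f₁ : (Fin a → F) → (Fin a → F) → F}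
    {f₂ : (Fin b → F) → (Fin b → F) → F}
    (hS : Cfsg.Geo.IsTensorFormStructure id (Cfsg.sympForm d F) f₁ f₂ e P) (A : GL (Fin a) F) (B : GL (Fin b) F)
    (hA : (A : Matrix (Fin a) (Fin a) F)ᵀ * Cfsg.Geo.gramMatrix f₁ * (A : Matrix (Fin a) (Fin a) F) =
      Cfsg.Geo.gramMatrix f₁)
    (hB : (B : Matrix (Fin b) (Fin b) F)ᵀ * Cfsg.Geo.gramMatrix f₂ * (B : Matrix (Fin b) (Fin b) F) =
      Cfsg.Geo.gramMatrix f₂) :
    ∃ t ∈ Cfsg.spGL d F, t ∈ Cfsg.Geo.tensorProductSubgroup a b e P ∧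
      ((coord e P t : GL (Fin a × Fin b) F) : Matrix (Fin a × Fin b) (Fin a × Fin b) F) =
        (A : Matrix (Fin a) (Fin a) F) ⊗ₖ (B : Matrix (Fin b) (Fin b) F) := by
  classical
  obtain ⟨c, -, hc⟩ := hS
  let K : GL (Fin a × Fin b) F :=
    { val := (A : Matrix (Fin a) (Fin a) F) ⊗ₖ (B : Matrix (Fin b) (Fin b) F)
      inv := ((A⁻¹ : GL (Fin a) F) : Matrix (Fin a) (Fin a) F) ⊗ₖ ((B⁻¹ : GL (Fin b) F) : Matrix (Fin b) (Fin b) F)
      val_inv := by rw [← Matrix.mul_kronecker_mul, Units.mul_inv, Units.mul_inv, Matrix.one_kronecker_one]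
      inv_val := by rw [← Matrix.mul_kronecker_mul, Units.inv_mul, Units.inv_mul, Matrix.one_kronecker_one] }
  set t : GL κ F := P * Cfsg.Geo.glReindex e.symm K * P⁻¹ with ht
  have hcoord : coord e P t = K := by
    refine Units.ext ?_
    rw [coord_coe, ← Units.val_mul, ← Units.val_mul,
      show P⁻¹ * t * P = Cfsg.Geo.glReindex e.symm K by rw [ht]; group]
    show Matrix.reindex e e (Matrix.reindex e.symm e.symm (K : Matrix (Fin a × Fin b) (Fin a × Fin b) F)) = _
    ext i j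
    simp
  refine ⟨t, SympFormStd.mem_spGL.2 fun u v => ?_, (mem_tensor e P t).2 ⟨A, B, by rw [hcoord]⟩, by rw [hcoord]⟩
  have hdec : ∀ w : κ → F, w = (P : Matrix κ κ F) *ᵥ ((fun j => (((P⁻¹ : GL κ F) : Matrix κ κ F) *ᵥ w) (e.symm j)) ∘ e) := by
    intro w
    have : ((fun j => (((P⁻¹ : GL κ F) : Matrix κ κ F) *ᵥ w) (e.symm j)) ∘ e) = ((P⁻¹ : GL κ F) : Matrix κ κ F) *ᵥ w :=
      funext fun j => by simp
    rw [this, Matrix.mulVec_mulVec, Units.mul_inv, Matrix.one_mulVec]
  have happ : ∀ y : Fin a × Fin b → F, (t : Matrix κ κ F) *ᵥ ((P : Matrix κ κ F) *ᵥ (y ∘ e)) =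
      (P : Matrix κ κ F) *ᵥ (((K : Matrix (Fin a × Fin b) (Fin a × Fin b) F) *ᵥ y) ∘ e) := by
    intro y
    rw [Matrix.mulVec_mulVec, ← Units.val_mul, show t * P = P * Cfsg.Geo.glReindex e.symm K by rw [ht]; group,
      Units.val_mul, ← Matrix.mulVec_mulVec]
    congr 1
    funext j
    show (Matrix.reindex e.symm e.symm (K : Matrix (Fin a × Fin b) (Fin a × Fin b) F) *ᵥ (y ∘ e)) j = _
    simp [Matrix.mulVec, dotProduct, ← e.sum_comp]
  rw [hdec u, hdec v, happ, happ, hc, hc, formOfGram_eq, formOfGram_eq]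
  congr 1
  rw [show ∀ (M : Matrix (Fin a × Fin b) (Fin a × Fin b) F) (x y : Fin a × Fin b → F),
      ((K : Matrix (Fin a × Fin b) (Fin a × Fin b) F) *ᵥ x) ⬝ᵥ M *ᵥ ((K : Matrix (Fin a × Fin b) (Fin a × Fin b) F) *ᵥ y) =
      x ⬝ᵥ ((K : Matrix (Fin a × Fin b) (Fin a × Fin b) F)ᵀ * M * (K : Matrix (Fin a × Fin b) (Fin a × Fin b) F)) *ᵥ y
    from fun M x y => by
      rw [← Matrix.mulVec_mulVec, ← Matrix.mulVec_mulVec]
      exact (dotProduct_comm _ _).trans (Matrix.dotProduct_transpose_mulVec _ _ _).symm]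
  congr 2
  show ((A : Matrix (Fin a) (Fin a) F) ⊗ₖ (B : Matrix (Fin b) (Fin b) F))ᵀ * _ * _ = _
  rw [← Matrix.kroneckerMap_transpose, ← Matrix.mul_kronecker_mul, ← Matrix.mul_kronecker_mul, hA, hB]

/-- Diagonal sign changes in an orthogonal group. -/
theorem exists_orth_involution (h2 : (2 : F) ≠ 0) {f₂ : (Fin b → F) → (Fin b → F) → F}
    (hf : Cfsg.Geo.IsSymmetricForm f₂) {k : ℕ} (hk : k ≤ b) :
    ∃ B : GL (Fin b) F, B * B = 1 ∧
      (B : Matrix (Fin b) (Fin b) F)ᵀ * Cfsg.Geo.gramMatrix f₂ * (B : Matrix (Fin b) (Fin b) F) =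
        Cfsg.Geo.gramMatrix f₂ ∧
      ((B : Matrix (Fin b) (Fin b) F) - 1).rank = k := by
  classical
  letI := invertibleOfNonzero h2
  let β : LinearMap.BilinForm F (Fin b → F) := LinearMap.mk₂ F f₂ hf.bilinear.add_left hf.bilinear.smul_left
    hf.bilinear.add_right hf.bilinear.smul_right
  obtain ⟨v₀, hv₀⟩ := LinearMap.BilinForm.exists_orthogonal_basis (B := β)
    (LinearMap.BilinForm.isSymm_iff.1 (LinearMap.BilinForm.isSymm_def.2 fun x y => hf.symm x y))
  let v : Module.Basis (Fin b) F (Fin b → F) := v₀.reindex (finCongr (Module.finrank_fintype_fun_eq_card F |>.trans (Fintype.card_fin b)))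
  set S := (Pi.basisFun F (Fin b)).toMatrix v with hS
  set G := LinearMap.BilinForm.toMatrix v β with hG
  have hGd : Matrix.diagonal (fun i => G i i) = G := by
    ext i j
    by_cases hij : i = j
    · subst hij; simp
    · rw [Matrix.diagonal_apply_ne _ hij, hG, LinearMap.BilinForm.toMatrix_apply]
      simp only [v, Module.Basis.reindex_apply]
      exact (hv₀ ((finCongr _).symm.injective.ne hij)).symm
  have hSG : Sᵀ * Cfsg.Geo.gramMatrix f₂ * S = G := by
    rw [hG, ← LinearMap.BilinForm.toMatrix_mul_basis_toMatrix (Pi.basisFun F (Fin b)) v, hS,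
      show LinearMap.BilinForm.toMatrix (Pi.basisFun F (Fin b)) β = Cfsg.Geo.gramMatrix f₂ by
        ext i j
        simp [LinearMap.BilinForm.toMatrix_apply, Cfsg.Geo.gramMatrix, β]]
  letI := (Pi.basisFun F (Fin b)).invertibleToMatrix v
  have hSu : IsUnit S := isUnit_of_invertible _
  obtain ⟨Su, hSu'⟩ := hSu
  set δ : Fin b → F := fun j => if (j : ℕ) < k then -1 else 1 with hδ
  have hδδ : Matrix.diagonal δ * Matrix.diagonal δ = 1 := by
    rw [Matrix.diagonal_mul_diagonal, ← Matrix.diagonal_one]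
    congr 1; funext j; simp only [hδ]; split_ifs <;> ring
  let Du : GL (Fin b) F := ⟨Matrix.diagonal δ, Matrix.diagonal δ, hδδ, hδδ⟩
  refine ⟨Su * Du * Su⁻¹, ?_, ?_, ?_⟩
  · have : Du * Du = 1 := Units.ext hδδ
    calc Su * Du * Su⁻¹ * (Su * Du * Su⁻¹) = Su * (Du * Du) * Su⁻¹ := by group
      _ = 1 := by rw [this]; group
  · have hGs : Cfsg.Geo.gramMatrix f₂ =
        ((Su⁻¹ : GL (Fin b) F) : Matrix (Fin b) (Fin b) F)ᵀ * G * ((Su⁻¹ : GL (Fin b) F) : Matrix (Fin b) (Fin b) F) := by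
      rw [← hSG, ← hSu']
      simp only [mul_assoc, Units.mul_inv, mul_one]
      rw [← mul_assoc, ← Matrix.transpose_mul, Units.mul_inv, Matrix.transpose_one, one_mul]
    have hdd : Matrix.diagonal δ * G * Matrix.diagonal δ = G := by
      rw [← hGd, Matrix.diagonal_mul_diagonal, Matrix.diagonal_mul_diagonal]
      congr 1; funext j; simp only [hδ]; split_ifs <;> ring
    rw [hGs, Units.val_mul, Units.val_mul, Matrix.transpose_mul, Matrix.transpose_mul]
    simp only [mul_assoc, Units.inv_mul_cancel_left]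
    rw [← mul_assoc (Su : Matrix (Fin b) (Fin b) F)ᵀ, ← Matrix.transpose_mul, Units.inv_mul, Matrix.transpose_one,
      one_mul]
    show _ * ((Matrix.diagonal δ)ᵀ * (G * (Matrix.diagonal δ * _))) = _
    rw [Matrix.diagonal_transpose, ← mul_assoc (Matrix.diagonal δ) G, ← mul_assoc (Matrix.diagonal δ * G), hdd]
  · have : ((Su * Du * Su⁻¹ : GL (Fin b) F) : Matrix (Fin b) (Fin b) F) - 1 =
        (Su : Matrix (Fin b) (Fin b) F) * ((Du : Matrix (Fin b) (Fin b) F) - 1) *
          ((Su⁻¹ : GL (Fin b) F) : Matrix (Fin b) (Fin b) F) := by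
      rw [Units.val_mul, Units.val_mul, mul_sub, sub_mul, mul_one, Units.mul_inv]
    rw [this, Matrix.rank_mul_eq_left_of_isUnit_det _ _ ((Matrix.isUnit_iff_isUnit_det _).1 (Su⁻¹).isUnit),
      Matrix.rank_mul_eq_right_of_isUnit_det _ _ ((Matrix.isUnit_iff_isUnit_det _).1 Su.isUnit)]
    show (Matrix.diagonal δ - 1).rank = k
    rw [← Matrix.diagonal_one, Matrix.diagonal_sub, Matrix.rank_diagonal, Fintype.card_subtype,
      show (Finset.univ.filter fun j : Fin b => δ j - 1 ≠ 0) = Finset.univ.filter fun j : Fin b => (j : ℕ) < k by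
        ext j
        by_cases h : (j : ℕ) < k
        · simp [hδ, h, show (-1 : F) - 1 ≠ 0 from fun e => h2 (by linear_combination -e)]
        · simp [hδ, h], Fin.card_filter_val_lt]
    omega

/-- A transvection outside all conjugates. -/
theorem exists_derangement_p {p : ℕ} [CharP F p] (hd : 0 < d) (ha2 : 2 ≤ a) (hb : 3 ≤ b)
    (e : κ ≃ Fin a × Fin b) (P : GL κ F) :
    ∃ x ∈ Cfsg.spGL d F, (∃ z : F, ((x ^ p : GL κ F) : Matrix κ κ F) = z • 1) ∧
      (∀ z : F, (x : Matrix κ κ F) ≠ z • 1) ∧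
      ∀ g : GL κ F, g⁻¹ * x * g ∉ Cfsg.Geo.tensorProductSubgroup a b e P := by
  classical
  set v : κ → F := Symp.stdE ⟨0, hd⟩ with hv
  set x := AltFormTransv.sympT (SympFormStd.isSymplecticForm d F) v 1 with hx
  set N := (x : Matrix κ κ F) - 1 with hN
  have hNapp : ∀ y, N *ᵥ y = Cfsg.sympForm d F y v • v := fun y => by
    rw [hN, Matrix.sub_mulVec, hx, AltFormTransv.sympT_mulVec, Matrix.one_mulVec, one_mul, add_sub_cancel_left]
  have hNN : N * N = 0 := Matrix.mulVec_injective (funext fun y => by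
    rw [← Matrix.mulVec_mulVec, hNapp, hNapp, Symp.form_smul_left, Symp.form_self, mul_zero, zero_smul,
      Matrix.zero_mulVec])
  have hr1 : N.rank = 1 := by
    refine le_antisymm ?_ ?_
    · show Module.finrank F (LinearMap.range N.mulVecLin) ≤ 1
      refine le_trans (Submodule.finrank_mono (t := Submodule.span F {v}) ?_)
        (le_trans (finrank_span_le_card _) (by simp))
      rintro _ ⟨y, rfl⟩
      rw [Matrix.mulVecLin_apply, hNapp]
      exact Submodule.smul_mem _ _ (Submodule.subset_span rfl)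
    · show 1 ≤ Module.finrank F (LinearMap.range N.mulVecLin)
      rw [Nat.one_le_iff_ne_zero, ne_eq, Submodule.finrank_eq_zero, LinearMap.range_eq_bot]
      intro h
      have := LinearMap.congr_fun h (Symp.stdF ⟨0, hd⟩)
      rw [Matrix.mulVecLin_apply, hNapp, hv, Symp.form_stdF_stdE, if_pos rfl, neg_one_smul, LinearMap.zero_apply,
        neg_eq_zero] at this
      have := congrFun this (Sum.inr ⟨0, hd⟩)
      simp [Symp.stdE] at this
  have hpow : ∀ k : ℕ, ((x ^ k : GL κ F) : Matrix κ κ F) = 1 + (k : F) • N := by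
    intro k
    induction k with
    | zero => simp
    | succ k ih =>
      rw [pow_succ, Units.val_mul, ih, show (x : Matrix κ κ F) = 1 + N by rw [hN]; abel, mul_add, mul_one, add_mul,
        one_mul, Matrix.smul_mul, hNN, smul_zero, add_zero, Nat.cast_succ, add_smul, one_smul, add_assoc]
  refine ⟨x, SympFormStd.sympT_mem_spGL v 1, ⟨1, by rw [hpow, CharP.cast_eq_zero, zero_smul, add_zero, one_smul]⟩,
    fun z hz => ?_, fun g hg => ?_⟩
  · have h1 : N.rank = (((z - 1) • (1 : Matrix κ κ F))).rank := by rw [hN, hz, sub_smul, one_smul]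
    rw [hr1] at h1
    by_cases hz1 : z - 1 = 0
    · rw [hz1, zero_smul, Matrix.rank_zero] at h1; omega
    · rw [Matrix.rank_of_isUnit _ (by
        rw [Matrix.isUnit_iff_isUnit_det, Matrix.det_smul, Matrix.det_one, mul_one]
        exact (isUnit_iff_ne_zero.2 hz1).pow _), Fintype.card_sum, Fintype.card_fin] at h1
      omega
  · rcases rank_dichotomy hg with h | h <;> have := h (1 : F) <;> rw [one_smul, ← hN, hr1] at this
    · omega
    · have := Nat.le_of_dvd one_pos this; omega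

/-- An involution outside all conjugates. -/
theorem exists_derangement_two (h2 : (2 : F) ≠ 0) (hd : 2 ≤ d) (ha4 : 3 ≤ a) (hb : 3 ≤ b)
    (e : κ ≃ Fin a × Fin b) (P : GL κ F) :
    ∃ x ∈ Cfsg.spGL d F, (∃ z : F, ((x ^ 2 : GL κ F) : Matrix κ κ F) = z • 1) ∧
      (∀ z : F, (x : Matrix κ κ F) ≠ z • 1) ∧
      ∀ g : GL κ F, g⁻¹ * x * g ∉ Cfsg.Geo.tensorProductSubgroup a b e P := by
  classical
  set s : Finset (Fin d) := {⟨0, by omega⟩}
  set δ : κ → F := Sum.elim (fun j => if j ∈ s then (-1 : F) else 1) (fun j => if j ∈ s then (-1 : F) else 1) with hδ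
  have hδδ : Matrix.diagonal δ * Matrix.diagonal δ = 1 := by
    rw [Matrix.diagonal_mul_diagonal, ← Matrix.diagonal_one]
    congr 1; funext j; rcases j with j | j <;> simp only [hδ, Sum.elim_inl, Sum.elim_inr] <;> split_ifs <;> ring
  let x : GL κ F := ⟨Matrix.diagonal δ, Matrix.diagonal δ, hδδ, hδδ⟩
  have hx : x ∈ Cfsg.spGL d F := SympFormStd.mem_spGL.2 fun u v => by
    show Cfsg.sympForm d F (Matrix.diagonal δ *ᵥ u) (Matrix.diagonal δ *ᵥ v) = _
    rw [Symp.form_apply, Symp.form_apply]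
    refine Finset.sum_congr rfl fun j _ => ?_
    simp only [Matrix.mulVec_diagonal, hδ, Sum.elim_inl, Sum.elim_inr]
    split_ifs <;> ring
  have hr : ((x : Matrix κ κ F) - 1).rank = 2 := by
    rw [show (x : Matrix κ κ F) = Matrix.diagonal δ from rfl, hδ, rank_sign s h2]; simp [s]
  refine ⟨x, hx, ⟨1, by rw [one_smul, pow_two]; exact hδδ⟩, fun z hz => ?_, fun g hg => ?_⟩
  · have h0 := congrFun (congrFun hz (Sum.inl ⟨0, by omega⟩)) (Sum.inl ⟨0, by omega⟩)
    have h1 := congrFun (congrFun hz (Sum.inl ⟨1, by omega⟩)) (Sum.inl ⟨1, by omega⟩)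
    simp [x, hδ, s] at h0 h1
    exact h2 (by linear_combination h1 - h0)
  · rcases rank_dichotomy hg with h | h <;> have := h (1 : F) <;> rw [one_smul, hr] at this
    · omega
    · have := Nat.le_of_dvd two_pos this; omega

/-- Every element of order 2 has a conjugate in the stabiliser when `a = 2`. -/
theorem conj_two [Finite F] (h2 : (2 : F) ≠ 0) (hd : 0 < d) {e : κ ≃ Fin 2 × Fin b} {P : GL κ F}
    {f₁ : (Fin 2 → F) → (Fin 2 → F) → F} {f₂ : (Fin b → F) → (Fin b → F) → F}
    (hf₁ : Cfsg.Geo.IsSymplecticForm f₁) (hf₂ : Cfsg.Geo.IsSymmetricForm f₂)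
    (hS : Cfsg.Geo.IsTensorFormStructure id (Cfsg.sympForm d F) f₁ f₂ e P) {x : GL κ F}
    (hx : x ∈ Cfsg.spGL d F) {z : F} (hz : ((x ^ 2 : GL κ F) : Matrix κ κ F) = z • 1) :
    ∃ g ∈ Cfsg.spGL d F, g⁻¹ * x * g ∈ Cfsg.Geo.tensorProductSubgroup 2 b e P := by
  classical
  have hbd : b = d := by have := Fintype.card_congr e; simp at this; omega
  have finish : ∀ t : GL κ F, ∀ ht : t ∈ Cfsg.spGL d F, t ∈ Cfsg.Geo.tensorProductSubgroup 2 b e P →
      IsConj (toSp ht) (toSp hx) → ∃ g ∈ Cfsg.spGL d F, g⁻¹ * x * g ∈ Cfsg.Geo.tensorProductSubgroup 2 b e P := by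
    intro t ht htm hc
    obtain ⟨g, hg, hgt⟩ := exists_conj_of_isConj hx ht hc
    exact ⟨g, hg, hgt ▸ htm⟩
  have hx2 : (x : Matrix κ κ F) * (x : Matrix κ κ F) = z • 1 := by rw [← Units.val_mul, ← pow_two, hz]
  have hzz := sq_eq_one_of_scalar hd (pow_mem hx 2) hz
  rcases mul_self_eq_one_iff.1 hzz with rfl | rfl
  · obtain ⟨g, s, hgc, hgs, hrk⟩ := exists_pattern h2 hx (Units.ext (by rw [Units.val_mul, hx2, one_smul, Units.val_one]))
    obtain ⟨B, hBB, hBG, hBr⟩ := exists_orth_involution h2 hf₂ (k := s.card)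
      (by have := Finset.card_le_univ s; simp at this; omega)
    obtain ⟨t, ht, htm, htc⟩ := exists_mem_spGL hS (1 : GL (Fin 2) F) B (by simp) hBG
    have htt : t * t = 1 := coord_injective e P (Units.ext (by
      rw [map_mul, map_one, Units.val_mul, htc, ← Matrix.mul_kronecker_mul, ← Units.val_mul, ← Units.val_mul, hBB,
        one_mul, Units.val_one, Units.val_one, Units.val_one, Matrix.one_kronecker_one]))
    obtain ⟨g', s', hgc', hgs', hrk'⟩ := exists_pattern h2 ht htt
    refine finish t ht htm (hgc'.trans ((Symp.isConj_of_signPattern hgs' hgs ?_).trans hgc.symm))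
    have h3 := coord_rank e P t 1
    have e3 : (1 : Matrix (Fin 2) (Fin 2) F) ⊗ₖ (B : Matrix (Fin b) (Fin b) F) - 1 =
        (1 : Matrix (Fin 2) (Fin 2) F) ⊗ₖ ((B : Matrix (Fin b) (Fin b) F) - 1) := by
      ext p p'
      by_cases h1 : p.1 = p'.1 <;> simp [Matrix.one_apply, Prod.ext_iff, h1]
    rw [htc, Units.val_one, one_smul, one_smul, e3, rank_one_kronecker, hBr, hrk'] at h3
    omega
  · have hJ : (!![0, -1; 1, 0] : Matrix (Fin 2) (Fin 2) F) * !![0, -1; 1, 0] = -1 := by
      ext i j; fin_cases i <;> fin_cases j <;> simp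
    let A : GL (Fin 2) F := Matrix.GeneralLinearGroup.mkOfDetNeZero !![0, -1; 1, 0] (by simp)
    obtain ⟨t, ht, htm, htc⟩ := exists_mem_spGL hS A (1 : GL (Fin b) F) (by
      have h00 := hf₁.alternating (Pi.single 0 1)
      have h11 := hf₁.alternating (Pi.single 1 1)
      have h10 := hf₁.skew (Pi.single 1 1) (Pi.single 0 1)
      show (!![0, -1; 1, 0] : Matrix (Fin 2) (Fin 2) F)ᵀ * _ * !![0, -1; 1, 0] = _
      ext i j
      fin_cases i <;> fin_cases j <;>
        simp [Matrix.mul_apply, Fin.sum_univ_two, Cfsg.Geo.gramMatrix, h00, h11, h10]) (by simp)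
    refine finish t ht htm (Symp.isConj_of_sq_eq_neg_one h2 ?_ ?_)
    · show (t : Matrix κ κ F) * (t : Matrix κ κ F) = -1
      have h4 : ((coord e P (t * t) : GL (Fin 2 × Fin b) F) : Matrix (Fin 2 × Fin b) (Fin 2 × Fin b) F) = -1 := by
        rw [map_mul, Units.val_mul, htc, ← Matrix.mul_kronecker_mul]
        show ((!![0, -1; 1, 0] : Matrix (Fin 2) (Fin 2) F) * !![0, -1; 1, 0]) ⊗ₖ _ = _
        rw [hJ, Units.val_one, one_mul]
        ext p p'
        by_cases h1 : p.1 = p'.1 <;> by_cases h2 : p.2 = p'.2 <;> simp [Matrix.one_apply, Prod.ext_iff, h1, h2]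
      have h5 : coord e P (t * t) = coord e P (-1) := Units.ext (by
        rw [h4, coord_coe, Units.val_neg, Units.val_one, mul_neg, mul_one, neg_mul, Units.inv_mul]
        ext i j
        simp [Matrix.one_apply])
      have h6 := congrArg (fun w : GL κ F => (w : Matrix κ κ F)) (coord_injective e P h5)
      simpa using h6
    · show (x : Matrix κ κ F) * (x : Matrix κ κ F) = -1
      rw [hx2, neg_one_smul]

end CfsgLib.Classical.PrimeDerangement.SpTensor
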