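import Mathlib
import Cfsg.Prelude.Def_GeometricClasses
import Cfsg.Agent.Eq.Def_GeometricClasses

/-!
Elements of prime order of the linear groups and the stabilisers of tensor decompositions with factors of
different dimensions.
-/

set_option autoImplicit false

namespace CfsgLib.Classical.PrimeDerangement.Tensor

open Matrix
open scoped Kronecker

variable {F : Type*} [Field F]

/-- Rank of `g ⊗ h - c` for `g` not scalar. -/
theorem rank_ge {a b : ℕ} (g : Matrix (Fin a) (Fin a) F) (hg : ∀ t : F, g ≠ t • 1)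
    (h : Matrix (Fin b) (Fin b) F) (hh : IsUnit h.det) (c : F) :
    b ≤ (g ⊗ₖ h - c • 1).rank := by
  classical
  obtain ⟨l, hl⟩ : ∃ l, LinearIndependent F ![l, Matrix.vecMulLinear g l] := by
    by_contra hno
    push Not at hno
    obtain ⟨t, ht⟩ := LinearMap.exists_eq_smul_id_of_forall_notLinearIndependent hno
    refine hg t (Matrix.ext fun i j => ?_)
    have := congrFun (LinearMap.congr_fun ht (Pi.single i 1)) j
    simpa [Matrix.one_apply, Pi.single_apply, eq_comm] using this
  set l₂ := Matrix.vecMulLinear g l with hl₂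
  let φ : (Fin a → F) →ₗ[F] (Fin 2 → F) :=
    LinearMap.pi fun t => ((dotProductBilin F F) (![l, l₂] t))
  have hφ : Function.Surjective φ := by
    have hN : (Matrix.of ![l, l₂]).mulVecLin = φ := by
      refine LinearMap.ext fun v => funext fun t => ?_
      fin_cases t <;> simp [φ, Matrix.mulVec]
    have hr : (Matrix.of ![l, l₂]).rank = 2 := by
      have := LinearIndependent.rank_matrix (M := Matrix.of ![l, l₂]) hl
      simpa using this
    rw [← hN, ← LinearMap.range_eq_top]
    exact Submodule.eq_top_of_finrank_eq (by rw [← Matrix.rank, hr, Module.finrank_fintype_fun_eq_card]; rfl)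
  let L : (Fin a × Fin b → F) →ₗ[F] (Fin 2 → Fin b → F) :=
    LinearMap.pi fun t => LinearMap.pi fun j =>
      ((dotProductBilin F F) (![l, l₂] t)).comp (LinearMap.funLeft F F fun i => (i, j))
  have hL : Function.Surjective L := by
    intro s
    choose u hu using fun j => hφ fun t => s t j
    refine ⟨fun ij => u ij.2 ij.1, funext fun t => funext fun j => ?_⟩
    exact congrFun (hu j) t
  set f := (g ⊗ₖ h - c • 1).mulVecLin with hf
  let L₁ : (Fin a × Fin b → F) →ₗ[F] (Fin b → F) := (LinearMap.proj 0).comp L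
  have key : LinearMap.ker f ⊓ LinearMap.ker L₁ ≤ LinearMap.ker L := by
    intro v hv
    obtain ⟨hv1, hv2⟩ := Submodule.mem_inf.1 hv
    rw [LinearMap.mem_ker] at hv1 hv2 ⊢
    have h1 : ∀ i j, ((g ⊗ₖ h) *ᵥ v) (i, j) = c * v (i, j) := fun i j => by
      have := congrFun hv1 (i, j)
      simp only [hf, Matrix.mulVecLin_apply, Matrix.sub_mulVec, Matrix.smul_mulVec, Matrix.one_mulVec, Pi.sub_apply,
        Pi.smul_apply, smul_eq_mul, Pi.zero_apply, sub_eq_zero] at this
      exact this
    have e0 : ∀ j, ∑ i, l i * v (i, j) = 0 := fun j => congrFun hv2 j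
    have e1 : h *ᵥ (fun j => ∑ i, l₂ i * v (i, j)) = 0 := by
      funext j
      have : ∑ i, l i * ((g ⊗ₖ h) *ᵥ v) (i, j) = (h *ᵥ fun j => ∑ i, l₂ i * v (i, j)) j := by
        simp only [hl₂, Matrix.mulVec, dotProduct, Matrix.vecMulLinear_apply, Matrix.vecMul,
          Matrix.kronecker_apply, Fintype.sum_prod_type, Finset.mul_sum, Finset.sum_mul]
        rw [Finset.sum_comm]
        conv_rhs => rw [Finset.sum_comm]
        refine Finset.sum_congr rfl fun i' _ => ?_
        rw [Finset.sum_comm]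
        exact Finset.sum_congr rfl fun j' _ => Finset.sum_congr rfl fun i _ => by ring
      rw [← this, Pi.zero_apply]
      calc ∑ i, l i * ((g ⊗ₖ h) *ᵥ v) (i, j) = c * ∑ i, l i * v (i, j) := by
            rw [Finset.mul_sum]; exact Finset.sum_congr rfl fun i _ => by rw [h1]; ring
        _ = 0 := by rw [e0, mul_zero]
    have e2 : (fun j => ∑ i, l₂ i * v (i, j)) = 0 :=
      Matrix.mulVec_injective_iff_isUnit.2 ((Matrix.isUnit_iff_isUnit_det h).2 hh)
        (e1.trans (Matrix.mulVec_zero h).symm)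
    funext t j
    fin_cases t
    · exact e0 j
    · exact congrFun e2 j
  have r1 := LinearMap.finrank_range_add_finrank_ker f
  have r2 := LinearMap.finrank_range_add_finrank_ker L
  rw [LinearMap.range_eq_top.2 hL, finrank_top] at r2
  have r3 := LinearMap.finrank_range_add_finrank_ker (L₁.domRestrict (LinearMap.ker f))
  have r4 : Module.finrank F (LinearMap.range (L₁.domRestrict (LinearMap.ker f))) ≤ b :=
    le_trans (Submodule.finrank_le _) (by simp)
  have r5 : Module.finrank F (LinearMap.ker (L₁.domRestrict (LinearMap.ker f))) ≤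
      Module.finrank F (LinearMap.ker L) := by
    refine le_of_eq_of_le ?_ (Submodule.finrank_mono key)
    rw [LinearMap.ker_domRestrict, ← Submodule.finrank_map_subtype_eq, Submodule.map_comap_subtype]
  show b ≤ Module.finrank F (LinearMap.range f)
  rw [show Module.finrank F (Fin 2 → Fin b → F) = b + b by simp [Module.finrank_pi_fintype, two_mul]] at r2
  simp at r1 r2
  omega

theorem rank_one_kronecker {a b : ℕ} (M : Matrix (Fin b) (Fin b) F) :
    ((1 : Matrix (Fin a) (Fin a) F) ⊗ₖ M).rank = a * M.rank := by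
  classical
  set f := ((1 : Matrix (Fin a) (Fin a) F) ⊗ₖ M).mulVecLin with hf
  have happ : ∀ (v : Fin a × Fin b → F) (i j), f v (i, j) = (M *ᵥ fun j' => v (i, j')) j := fun v i j => by
    simp [hf, Matrix.mulVec, dotProduct, Fintype.sum_prod_type, Matrix.one_apply]
  let e : LinearMap.ker f ≃ₗ[F] (Fin a → LinearMap.ker M.mulVecLin) :=
    { toFun := fun v i => ⟨fun j => v.1 (i, j), by
        rw [LinearMap.mem_ker, Matrix.mulVecLin_apply]
        funext j
        rw [← happ, LinearMap.mem_ker.1 v.2]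
        rfl⟩
      invFun := fun w => ⟨fun ij => (w ij.1).1 ij.2, by
        rw [LinearMap.mem_ker]
        funext ij
        obtain ⟨i, j⟩ := ij
        rw [happ]
        exact congrFun (LinearMap.mem_ker.1 (w i).2) j⟩
      map_add' := fun _ _ => rfl
      map_smul' := fun _ _ => rfl
      left_inv := fun _ => rfl
      right_inv := fun _ => rfl }
  have r1 := LinearMap.finrank_range_add_finrank_ker f
  have r2 := LinearMap.finrank_range_add_finrank_ker M.mulVecLin
  rw [e.finrank_eq, Module.finrank_pi_fintype] at r1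
  show Module.finrank F (LinearMap.range f) = a * Module.finrank F (LinearMap.range M.mulVecLin)
  simp at r1 r2
  have r3 := congrArg (a * ·) r2
  simp only [mul_add] at r3
  omega

/-- The change of coordinates to the tensor product. -/
noncomputable def coord {ι : Type} [Fintype ι] [DecidableEq ι] {a b : ℕ} (e : ι ≃ Fin a × Fin b) (U : GL (ι) F) :
    GL (ι) F →* GL (Fin a × Fin b) F :=
  (Cfsg.Geo.glReindex e).toMonoidHom.comp (MulAut.conj U⁻¹).toMonoidHom

theorem coord_coe {ι : Type} [Fintype ι] [DecidableEq ι] {a b : ℕ} (e : ι ≃ Fin a × Fin b) (U x : GL (ι) F) :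
    ((coord e U x : GL (Fin a × Fin b) F) : Matrix (Fin a × Fin b) (Fin a × Fin b) F) =
      Matrix.reindex e e (((U⁻¹ : GL (ι) F) : Matrix (ι) (ι) F) * (x : Matrix (ι) (ι) F) *
        (U : Matrix (ι) (ι) F)) := by
  show Matrix.reindex e e ((U⁻¹ * x * U⁻¹⁻¹ : GL (ι) F) : Matrix (ι) (ι) F) = _
  rw [inv_inv, Units.val_mul, Units.val_mul]

theorem coord_injective {ι : Type} [Fintype ι] [DecidableEq ι] {a b : ℕ} (e : ι ≃ Fin a × Fin b) (U : GL (ι) F) :
    Function.Injective (coord e U) :=
  (Cfsg.Geo.glReindex e).injective.comp (MulAut.conj U⁻¹).injective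

theorem coord_rank {ι : Type} [Fintype ι] [DecidableEq ι] {a b : ℕ} (e : ι ≃ Fin a × Fin b) (U x : GL (ι) F) (c : F) :
    (((coord e U x : GL (Fin a × Fin b) F) : Matrix (Fin a × Fin b) (Fin a × Fin b) F) - c • 1).rank =
      ((x : Matrix (ι) (ι) F) - c • 1).rank := by
  rw [coord_coe]
  have : Matrix.reindex e e (((U⁻¹ : GL (ι) F) : Matrix (ι) (ι) F) * (x : Matrix (ι) (ι) F) *
        (U : Matrix (ι) (ι) F)) - c • 1 =
      Matrix.reindex e e (((U⁻¹ : GL (ι) F) : Matrix (ι) (ι) F) *
        ((x : Matrix (ι) (ι) F) - c • 1) * (U : Matrix (ι) (ι) F)) := by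
    rw [mul_sub, sub_mul, Matrix.mul_smul, Matrix.mul_one, Matrix.smul_mul, Units.inv_mul]
    ext i j
    simp [Matrix.one_apply]
  rw [this, Matrix.rank_reindex, Matrix.rank_mul_eq_left_of_isUnit_det _ _ ((Matrix.isUnit_iff_isUnit_det _).1 U.isUnit),
    Matrix.rank_mul_eq_right_of_isUnit_det _ _ ((Matrix.isUnit_iff_isUnit_det _).1 (U⁻¹).isUnit)]

theorem mem_tensor {ι : Type} [Fintype ι] [DecidableEq ι] {a b : ℕ} (e : ι ≃ Fin a × Fin b) (P t : GL (ι) F) :
    t ∈ Cfsg.Geo.tensorProductSubgroup a b e P ↔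
      ∃ (A : GL (Fin a) F) (B : GL (Fin b) F),
        ((coord e P t : GL (Fin a × Fin b) F) : Matrix (Fin a × Fin b) (Fin a × Fin b) F) =
          (A : Matrix (Fin a) (Fin a) F) ⊗ₖ (B : Matrix (Fin b) (Fin b) F) := by
  unfold Cfsg.Geo.tensorProductSubgroup
  constructor
  · rintro ⟨_, ⟨k, ⟨A, B, hk⟩, rfl⟩, rfl⟩
    refine ⟨A, B, ?_⟩
    rw [← hk, coord_coe]
    have : P⁻¹ * ((MulAut.conj P).toMonoidHom ((Cfsg.Geo.glReindex e.symm).toMonoidHom k)) * P =
        Cfsg.Geo.glReindex e.symm k := by simp [mul_assoc]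
    rw [← Units.val_mul, ← Units.val_mul, this]
    show Matrix.reindex e e (Matrix.reindex e.symm e.symm (k : Matrix (Fin a × Fin b) (Fin a × Fin b) F)) = _
    ext i j
    simp
  · rintro ⟨A, B, hk⟩
    refine ⟨Cfsg.Geo.glReindex e.symm (coord e P t), ⟨_, ⟨A, B, hk⟩, rfl⟩, ?_⟩
    have : Cfsg.Geo.glReindex e.symm (coord e P t) = P⁻¹ * t * P := by
      refine Units.ext ?_
      show Matrix.reindex e.symm e.symm ((coord e P t : GL (Fin a × Fin b) F) : Matrix (Fin a × Fin b) (Fin a × Fin b) F) = _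
      rw [coord_coe, ← Units.val_mul, ← Units.val_mul]
      ext i j
      simp
    rw [this]
    simp [mul_assoc]

/-- `g` is conjugate to an element of the tensor product stabiliser. -/
theorem exists_kron {ι : Type} [Fintype ι] [DecidableEq ι] {a b : ℕ} {e : ι ≃ Fin a × Fin b} {P g x : GL (ι) F}
    (h : g⁻¹ * x * g ∈ Cfsg.Geo.tensorProductSubgroup a b e P) :
    ∃ (U : GL (ι) F) (A : GL (Fin a) F) (B : GL (Fin b) F),
      ((coord e U x : GL (Fin a × Fin b) F) : Matrix (Fin a × Fin b) (Fin a × Fin b) F) =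
          (A : Matrix (Fin a) (Fin a) F) ⊗ₖ (B : Matrix (Fin b) (Fin b) F) := by
  obtain ⟨A, B, hk⟩ := (mem_tensor e P _).1 h
  refine ⟨g * P, A, B, ?_⟩
  rw [← hk, coord_coe, coord_coe]
  simp [mul_assoc]

theorem kronecker_pow {a b : ℕ} (A : Matrix (Fin a) (Fin a) F) (B : Matrix (Fin b) (Fin b) F) (k : ℕ) :
    (A ⊗ₖ B) ^ k = (A ^ k) ⊗ₖ (B ^ k) := by
  induction k with
  | zero => simp
  | succ k ih => rw [pow_succ, pow_succ, pow_succ, ih, ← Matrix.mul_kronecker_mul]

/-- Either the rank is large or it is a multiple of the smaller dimension. -/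
theorem rank_dichotomy {ι : Type} [Fintype ι] [DecidableEq ι] {a b : ℕ} {e : ι ≃ Fin a × Fin b} {P g x : GL (ι) F}
    (h : g⁻¹ * x * g ∈ Cfsg.Geo.tensorProductSubgroup a b e P) :
    (∀ c : F, b ≤ ((x : Matrix (ι) (ι) F) - c • 1).rank) ∨
      ∀ c : F, a ∣ ((x : Matrix (ι) (ι) F) - c • 1).rank := by
  obtain ⟨U, A, B, hU⟩ := exists_kron h
  by_cases hA : ∃ t : F, (A : Matrix (Fin a) (Fin a) F) = t • 1
  · obtain ⟨t, ht⟩ := hA
    right
    intro c
    rw [← coord_rank e U x c, hU, ht, Matrix.smul_kronecker, ← Matrix.kronecker_smul,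
      show (1 : Matrix (Fin a × Fin b) (Fin a × Fin b) F) = (1 : Matrix (Fin a) (Fin a) F) ⊗ₖ (1 : Matrix (Fin b) (Fin b) F)
        from Matrix.one_kronecker_one.symm, ← Matrix.kronecker_smul]
    have : (1 : Matrix (Fin a) (Fin a) F) ⊗ₖ (t • (B : Matrix (Fin b) (Fin b) F)) -
        (1 : Matrix (Fin a) (Fin a) F) ⊗ₖ (c • (1 : Matrix (Fin b) (Fin b) F)) =
        (1 : Matrix (Fin a) (Fin a) F) ⊗ₖ (t • (B : Matrix (Fin b) (Fin b) F) - c • 1) := by
      ext i j
      simp [Matrix.kronecker_apply]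
      ring
    rw [this, rank_one_kronecker]
    exact dvd_mul_right a _
  · push Not at hA
    left
    intro c
    rw [← coord_rank e U x c, hU]
    exact rank_ge _ hA _ ((Matrix.isUnit_iff_isUnit_det _).1 B.isUnit) c

/-- The least dimension with an element of order `r`. -/
theorem rank_sub_one_ge [Finite F] {b i r : ℕ} [Fact r.Prime] (hr : (r : F) ≠ 0)
    (hi : ∀ j < i, ¬ r ∣ Nat.card (GL (Fin j) F)) {h : Matrix (Fin b) (Fin b) F} (h1 : h ^ r = 1) (hne : h ≠ 1) :
    i ≤ (h - 1).rank := by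
  classical
  by_contra hlt
  push Not at hlt
  set f : Module.End F (Fin b → F) := Matrix.toLinAlgEquiv' h with hf
  set U := LinearMap.range (h - 1).mulVecLin with hU
  have hmaps : ∀ u ∈ U, f u ∈ U := by
    rintro _ ⟨v, rfl⟩
    refine ⟨f v, ?_⟩
    simp only [hf, Matrix.mulVecLin_apply, Matrix.toLinAlgEquiv'_apply, Matrix.mulVec_mulVec, sub_mul, mul_sub,
      one_mul, mul_one]
  set fU : Module.End F U := f.restrict hmaps with hfU
  have hpow : fU ^ r = 1 := by
    have : ∀ k : ℕ, ∀ u : U, ((fU ^ k) u : Fin b → F) = (f ^ k) u.1 := by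
      intro k
      induction k with
      | zero => intro u; rfl
      | succ k ih => intro u; rw [pow_succ, pow_succ, Module.End.mul_apply, ih]; rfl
    refine LinearMap.ext fun u => Subtype.ext ?_
    rw [this, hf, ← map_pow, h1, map_one]
    rfl
  by_cases hfix : fU = 1
  · have hsq : (h - 1) * (h - 1) = 0 := by
      refine Matrix.mulVec_injective (funext fun v => ?_)
      have := congrArg Subtype.val (LinearMap.congr_fun hfix ⟨(h - 1) *ᵥ v, ⟨v, rfl⟩⟩)
      simp only [hfU, LinearMap.restrict_apply, Module.End.one_apply, hf, Matrix.toLinAlgEquiv'_apply] at this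
      rw [← Matrix.mulVec_mulVec, Matrix.sub_mulVec, this, Matrix.one_mulVec, sub_self, Matrix.zero_mulVec]
    have hk : ∀ k : ℕ, h ^ k = 1 + (k : F) • (h - 1) := by
      intro k
      induction k with
      | zero => simp
      | succ k ih =>
        rw [pow_succ, ih]
        nth_rw 2 [show h = 1 + (h - 1) by abel]
        rw [mul_add, mul_one, add_mul, one_mul, Matrix.smul_mul, hsq, smul_zero, add_zero, Nat.cast_succ, add_smul,
          one_smul, add_assoc]
    have := (hk r).symm.trans h1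
    rw [add_eq_left, smul_eq_zero] at this
    exact hne (sub_eq_zero.1 (this.resolve_left hr))
  · set B := Module.finBasis F U
    set A := LinearMap.toMatrixAlgEquiv B fU with hA
    have hAr : A ^ r = 1 := by rw [hA, ← map_pow, hpow, map_one]
    let Au : GL (Fin (Module.finrank F U)) F := Units.ofPowEqOne A r hAr (Fact.out : r.Prime).ne_zero
    have hAu : orderOf Au = r := orderOf_eq_prime (Units.ext hAr) fun e => hfix <|
      (LinearMap.toMatrixAlgEquiv B).injective ((congrArg Units.val e).trans (map_one _).symm)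
    exact hi _ hlt (hAu ▸ orderOf_dvd_natCard Au)

theorem det_one_of_pow_eq_one [Finite F] {r : ℕ} [Fact r.Prime] (hq : ¬ r ∣ Nat.card Fˣ) {u : Fˣ} (h : u ^ r = 1) :
    u = 1 := by
  by_contra hne
  exact hq (orderOf_eq_prime h hne ▸ orderOf_dvd_natCard u)

/-- An element of prime order not dividing `q - 1` outside the conjugates of the stabiliser. -/
theorem exists_derangement [Finite F] {n a b r : ℕ} [Fact r.Prime] (hab : n = a * b) (ha : 2 ≤ a) (hlt : a < b)
    (e : Fin n ≃ Fin a × Fin b) (P : GL (Fin n) F) (hr : (r : F) ≠ 0) (hq : ¬ r ∣ Nat.card Fˣ)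
    (hn : r ∣ Nat.card (GL (Fin n) F)) :
    ∃ x ∈ Cfsg.Geo.specialLinear (Fin n) F, x ^ r = 1 ∧ (∀ z : F, (x : Matrix (Fin n) (Fin n) F) ≠ z • 1) ∧
      ∀ g : GL (Fin n) F, g⁻¹ * x * g ∉ Cfsg.Geo.tensorProductSubgroup a b e P := by
  classical
  have hex : ∃ j, r ∣ Nat.card (GL (Fin j) F) := ⟨n, hn⟩
  set i := Nat.find hex with hi
  have hin : i ≤ n := Nat.find_min' hex hn
  have hmin : ∀ j < i, ¬ r ∣ Nat.card (GL (Fin j) F) := fun j hj => Nat.find_min hex hj
  have hi1 : 1 ≤ i := by
    by_contra h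
    have h0 : i = 0 := by omega
    have := Nat.find_spec hex
    rw [← hi, h0, Nat.card_unique, Nat.dvd_one] at this
    exact (Fact.out : r.Prime).ne_one this
  obtain ⟨A, hA⟩ := exists_prime_orderOf_dvd_card' r (Nat.find_spec hex)
  let ε : Fin i ⊕ Fin (n - i) ≃ Fin n := finSumFinEquiv.trans (finCongr (by omega))
  let M : Matrix (Fin n) (Fin n) F :=
    Matrix.reindex ε ε (Matrix.fromBlocks (A : Matrix (Fin i) (Fin i) F) 0 0 1)
  have hM : M ^ r = 1 := by
    show (Matrix.reindexAlgEquiv F F ε (Matrix.fromBlocks (A : Matrix (Fin i) (Fin i) F) 0 0 1)) ^ r = 1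
    rw [← map_pow, Matrix.fromBlocks_diagonal_pow, ← Units.val_pow_eq_pow_val, one_pow,
      show A ^ r = 1 from by have := pow_orderOf_eq_one A; rwa [hA] at this,
      Units.val_one, Matrix.fromBlocks_one, map_one]
  let x : GL (Fin n) F := Units.ofPowEqOne M r hM (Fact.out : r.Prime).ne_zero
  have hxr : x ^ r = 1 := Units.ext hM
  have hx1 : x ≠ 1 := by
    intro h
    have : M = 1 := congrArg (fun t : GL (Fin n) F => (t : Matrix (Fin n) (Fin n) F)) h
    have : Matrix.fromBlocks (A : Matrix (Fin i) (Fin i) F) 0 0 1 = 1 :=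
      (Matrix.reindexAlgEquiv F F ε).injective (this.trans (map_one _).symm)
    rw [← Matrix.fromBlocks_one, Matrix.fromBlocks_inj] at this
    have hA1 : A = 1 := Units.ext this.1
    rw [hA1, orderOf_one] at hA
    exact (Fact.out : r.Prime).ne_one hA.symm
  have hrank : ((x : Matrix (Fin n) (Fin n) F) - 1).rank ≤ i := by
    have e1 : (x : Matrix (Fin n) (Fin n) F) - 1 =
        Matrix.reindex ε ε (Matrix.fromRows (1 : Matrix (Fin i) (Fin i) F) (0 : Matrix (Fin (n - i)) (Fin i) F) *
          Matrix.fromCols ((A : Matrix (Fin i) (Fin i) F) - 1) (0 : Matrix (Fin i) (Fin (n - i)) F)) := by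
      rw [Matrix.fromRows_mul_fromCols]
      show Matrix.reindexAlgEquiv F F ε _ - 1 = Matrix.reindexAlgEquiv F F ε _
      rw [← map_one (Matrix.reindexAlgEquiv F F ε), ← map_sub]
      congr 1
      ext (i | i) (j | j) <;> simp [Matrix.one_apply]
    rw [e1, Matrix.rank_reindex]
    exact le_trans (Matrix.rank_mul_le_left _ _) (le_trans (Matrix.rank_le_card_width _) (by simp))
  refine ⟨x, MonoidHom.mem_ker.2 (det_one_of_pow_eq_one hq (by rw [← map_pow, hxr, map_one])), hxr, ?_, ?_⟩
  · intro z hz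
    have hz0 : z ≠ 0 := by
      rintro rfl
      rw [zero_smul] at hz
      haveI : NeZero n := ⟨by omega⟩
      exact x.ne_zero hz
    have h2 := congrArg (fun t : GL (Fin n) F => (t : Matrix (Fin n) (Fin n) F) ⟨0, by omega⟩ ⟨0, by omega⟩) hxr
    simp only [Units.val_pow_eq_pow_val, hz, smul_pow, one_pow, Units.val_one, Matrix.smul_apply, Matrix.one_apply_eq,
      smul_eq_mul, mul_one] at h2
    have hz1 : Units.mk0 z hz0 = 1 := det_one_of_pow_eq_one hq (Units.ext (by simpa using h2))
    refine hx1 (Units.ext ?_)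
    rw [hz, show z = 1 from congrArg Units.val hz1, one_smul, Units.val_one]
  · intro g hg
    obtain ⟨U, A', B', hU⟩ := exists_kron hg
    have hy : (coord e U x) ^ r = 1 := by rw [← map_pow, hxr, map_one]
    have hy' : ((A' : Matrix (Fin a) (Fin a) F) ^ r) ⊗ₖ ((B' : Matrix (Fin b) (Fin b) F) ^ r) = 1 := by
      rw [← kronecker_pow, ← hU, ← Units.val_pow_eq_pow_val, hy, Units.val_one]
    -- the `r`th power of `A'` is scalar
    obtain ⟨j₁, j₂, hj⟩ : ∃ j₁ j₂, ((B' : Matrix (Fin b) (Fin b) F) ^ r) j₁ j₂ ≠ 0 := by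
      by_contra h
      push Not at h
      haveI : NeZero b := ⟨by omega⟩
      refine (B' ^ r).ne_zero ?_
      rw [Units.val_pow_eq_pow_val]
      exact Matrix.ext h
    have hAr : ∃ s : F, (A' : Matrix (Fin a) (Fin a) F) ^ r = s • 1 := by
      refine ⟨(if j₁ = j₂ then 1 else 0) / ((B' : Matrix (Fin b) (Fin b) F) ^ r) j₁ j₂, Matrix.ext fun i i' => ?_⟩
      have := congrFun (congrFun hy' (i, j₁)) (i', j₂)
      simp only [Matrix.kronecker_apply, Matrix.one_apply, Prod.mk.injEq] at this
      rw [Matrix.smul_apply, smul_eq_mul, Matrix.one_apply, div_mul_eq_mul_div, eq_div_iff hj, this]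
      by_cases h1 : i = i' <;> by_cases h2 : j₁ = j₂ <;> simp [h1, h2]
    obtain ⟨s, hs⟩ := hAr
    haveI : NeZero a := ⟨by omega⟩
    have hs0 : s ≠ 0 := by
      rintro rfl
      exact (A' ^ r).ne_zero (by rw [Units.val_pow_eq_pow_val, hs, zero_smul])
    have hco : (Nat.card Fˣ).Coprime r :=
      ((Nat.Prime.coprime_iff_not_dvd (Fact.out : r.Prime)).2 hq).symm
    obtain ⟨β, hβ⟩ := (powCoprime hco).surjective (Units.mk0 s hs0)
    replace hβ : (β : F) ^ r = s := congrArg Units.val hβ
    have hrk := coord_rank e U x 1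
    rw [hU, one_smul, one_smul] at hrk
    by_cases hsc : ∃ t : F, (A' : Matrix (Fin a) (Fin a) F) = t • 1
    · obtain ⟨t, ht⟩ := hsc
      set h' := t • (B' : Matrix (Fin b) (Fin b) F) with hh'
      have hK : ((coord e U x : GL (Fin a × Fin b) F) : Matrix (Fin a × Fin b) (Fin a × Fin b) F) =
          (1 : Matrix (Fin a) (Fin a) F) ⊗ₖ h' := by
        rw [hU, ht, hh', Matrix.smul_kronecker, Matrix.kronecker_smul]
      have hh1 : h' ^ r = 1 := by
        have e2 : (1 : Matrix (Fin a) (Fin a) F) ⊗ₖ (h' ^ r) = 1 := by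
          have h0 := congrArg (fun t : GL (Fin a × Fin b) F => (t : Matrix (Fin a × Fin b) (Fin a × Fin b) F)) hy
          simpa only [Units.val_pow_eq_pow_val, hK, kronecker_pow, one_pow, Units.val_one] using h0
        refine Matrix.ext fun j j' => ?_
        have := congrFun (congrFun e2 (0, j)) (0, j')
        simpa [Matrix.kronecker_apply, Matrix.one_apply] using this
      have hh2 : h' ≠ 1 := fun h => hx1 (coord_injective e U (by
        refine Units.ext ?_
        rw [hK, h, map_one, Units.val_one, Matrix.one_kronecker_one]))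
      have hge := rank_sub_one_ge hr hmin hh1 hh2
      rw [← hU, hK] at hrk
      have e3 : (1 : Matrix (Fin a) (Fin a) F) ⊗ₖ h' - 1 = (1 : Matrix (Fin a) (Fin a) F) ⊗ₖ (h' - 1) := by
        ext p p'
        by_cases h1 : p.1 = p'.1 <;> simp [Matrix.kronecker_apply, Matrix.one_apply, Prod.ext_iff, h1]
      rw [e3, rank_one_kronecker] at hrk
      have h3 : a * i ≤ i := le_trans (Nat.mul_le_mul_left a hge) (hrk.le.trans hrank)
      have h4 : 2 * i ≤ a * i := Nat.mul_le_mul_right i ha
      omega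
    · push Not at hsc
      have h1 := rank_ge _ hsc _ ((Matrix.isUnit_iff_isUnit_det _).1 B'.isUnit) (1 : F)
      rw [one_smul, hrk] at h1
      have hA'' : ((β⁻¹ : Fˣ) : F) • (A' : Matrix (Fin a) (Fin a) F) ≠ 1 := fun h => hsc (β : F) (by
        rw [← h, smul_smul, Units.mul_inv, one_smul])
      have hA''r : (((β⁻¹ : Fˣ) : F) • (A' : Matrix (Fin a) (Fin a) F)) ^ r = 1 := by
        rw [smul_pow, hs, smul_smul, ← hβ, ← mul_pow, Units.inv_mul, one_pow, one_smul]
      have h2 := rank_sub_one_ge hr hmin hA''r hA''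
      have h3 := Matrix.rank_le_card_width ((((β⁻¹ : Fˣ) : F) • (A' : Matrix (Fin a) (Fin a) F)) - 1)
      rw [Fintype.card_fin] at h3
      omega

end CfsgLib.Classical.PrimeDerangement.Tensor
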