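import Cfsg.Agent.Classical.PrimeDerangement.Tensor
import Cfsg.Agent.Classical.Semisimple.PrimeOrder

/-!
Stronger rank bounds for Kronecker products with an element of prime order, and reciprocal roots of irreducible
polynomials of odd degree over finite fields.
-/

set_option autoImplicit false

namespace CfsgLib.Classical.PrimeDerangement.Tensor

open Matrix
open scoped Kronecker

variable {F : Type*} [Field F]

/-- Rank of `g ⊗ h - c` when `g` has `s + 1` independent iterates of a row vector. -/
theorem rank_ge_cyclic {a b s : ℕ} (g : Matrix (Fin a) (Fin a) F) (l : Fin a → F)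
    (hl : LinearIndependent F fun t : Fin (s + 1) => l ᵥ* (g ^ (t : ℕ))) (h : Matrix (Fin b) (Fin b) F)
    (hh : IsUnit h.det) (c : F) : s * b ≤ (g ⊗ₖ h - c • 1).rank := by
  classical
  set lt : Fin (s + 1) → Fin a → F := fun t => l ᵥ* (g ^ (t : ℕ)) with hlt
  let φ : (Fin a → F) →ₗ[F] (Fin (s + 1) → F) := LinearMap.pi fun t => (dotProductBilin F F) (lt t)
  have hφ : Function.Surjective φ := by
    have hN : (Matrix.of lt).mulVecLin = φ := LinearMap.ext fun v => funext fun t => by simp [φ, Matrix.mulVec]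
    have hr : (Matrix.of lt).rank = s + 1 := by
      have := LinearIndependent.rank_matrix (M := Matrix.of lt) hl
      simpa using this
    rw [← hN, ← LinearMap.range_eq_top]
    exact Submodule.eq_top_of_finrank_eq (by rw [← Matrix.rank, hr, Module.finrank_fintype_fun_eq_card]; simp)
  let L : (Fin a × Fin b → F) →ₗ[F] (Fin (s + 1) → Fin b → F) :=
    LinearMap.pi fun t => LinearMap.pi fun j =>
      ((dotProductBilin F F) (lt t)).comp (LinearMap.funLeft F F fun i => (i, j))
  have hL : Function.Surjective L := by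
    intro w
    choose u hu using fun j => hφ fun t => w t j
    exact ⟨fun ij => u ij.2 ij.1, funext fun t => funext fun j => congrFun (hu j) t⟩
  set f := (g ⊗ₖ h - c • 1).mulVecLin with hf
  let L₁ : (Fin a × Fin b → F) →ₗ[F] (Fin b → F) := (LinearMap.proj 0).comp L
  have key : LinearMap.ker f ⊓ LinearMap.ker L₁ ≤ LinearMap.ker L := by
    intro v hv
    obtain ⟨hv1, hv2⟩ := Submodule.mem_inf.1 hv
    rw [LinearMap.mem_ker] at hv1 hv2 ⊢
    have h1 : ∀ i j, ((g ⊗ₖ h) *ᵥ v) (i, j) = c * v (i, j) := fun i j => by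
      have := congrFun hv1 (i, j)
      simp only [hf, Matrix.mulVecLin_apply, Matrix.sub_mulVec, Matrix.smul_mulVec, Matrix.one_mulVec, Pi.sub_apply,
        Pi.smul_apply, smul_eq_mul, Pi.zero_apply, sub_eq_zero] at this
      exact this
    have step : ∀ k : ℕ, ∀ j, ∑ i, (l ᵥ* (g ^ k)) i * v (i, j) = 0 := by
      intro k
      induction k with
      | zero => intro j; exact congrFun hv2 j
      | succ k ih =>
        set m := l ᵥ* (g ^ k) with hm
        have hm2 : l ᵥ* (g ^ (k + 1)) = m ᵥ* g := by rw [pow_succ, ← Matrix.vecMul_vecMul]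
        have e1 : h *ᵥ (fun j => ∑ i, (m ᵥ* g) i * v (i, j)) = 0 := by
          funext j
          have : ∑ i, m i * ((g ⊗ₖ h) *ᵥ v) (i, j) = (h *ᵥ fun j => ∑ i, (m ᵥ* g) i * v (i, j)) j := by
            simp only [Matrix.mulVec, dotProduct, Matrix.vecMul,
              Matrix.kronecker_apply, Fintype.sum_prod_type, Finset.mul_sum, Finset.sum_mul]
            rw [Finset.sum_comm]
            conv_rhs => rw [Finset.sum_comm]
            refine Finset.sum_congr rfl fun i' _ => ?_
            rw [Finset.sum_comm]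
            exact Finset.sum_congr rfl fun j' _ => Finset.sum_congr rfl fun i _ => by ring
          rw [← this, Pi.zero_apply]
          calc ∑ i, m i * ((g ⊗ₖ h) *ᵥ v) (i, j) = c * ∑ i, m i * v (i, j) := by
                rw [Finset.mul_sum]; exact Finset.sum_congr rfl fun i _ => by rw [h1]; ring
            _ = 0 := by rw [ih, mul_zero]
        have e2 := Matrix.mulVec_injective_iff_isUnit.2 ((Matrix.isUnit_iff_isUnit_det h).2 hh)
            (e1.trans (Matrix.mulVec_zero h).symm)
        intro j
        rw [hm2]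
        exact congrFun e2 j
    exact funext fun t => funext fun j => step t j
  have r1 := LinearMap.finrank_range_add_finrank_ker f
  have r2 := LinearMap.finrank_range_add_finrank_ker L
  rw [LinearMap.range_eq_top.2 hL, finrank_top,
    show Module.finrank F (Fin (s + 1) → Fin b → F) = (s + 1) * b by simp [Module.finrank_pi_fintype]] at r2
  have r3 := LinearMap.finrank_range_add_finrank_ker (L₁.domRestrict (LinearMap.ker f))
  have r4 : Module.finrank F (LinearMap.range (L₁.domRestrict (LinearMap.ker f))) ≤ b :=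
    le_trans (Submodule.finrank_le _) (by simp)
  have r5 : Module.finrank F (LinearMap.ker (L₁.domRestrict (LinearMap.ker f))) ≤
      Module.finrank F (LinearMap.ker L) := by
    refine le_of_eq_of_le ?_ (Submodule.finrank_mono key)
    rw [LinearMap.ker_domRestrict, ← Submodule.finrank_map_subtype_eq, Submodule.map_comap_subtype]
  show s * b ≤ Module.finrank F (LinearMap.range f)
  rw [add_mul, one_mul] at r2
  simp at r1 r2
  omega

section order

variable [Fintype F] {r : ℕ} [Fact r.Prime]

/-- A moved vector of a map with `r`th power one has `i` independent iterates. -/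
theorem linearIndependent_orbit {V : Type*} [AddCommGroup V] [Module F V] [FiniteDimensional F V]
    (hrF : (r : F) ≠ 0) {f : Module.End F V} (hf : f ^ r = 1) {l : V} (hl : f l ≠ l) :
    ∀ m ≤ orderOf (Fintype.card F : ZMod r), LinearIndependent F fun t : Fin m => (f ^ (t : ℕ)) l := by
  intro m
  induction m with
  | zero => exact fun _ => linearIndependent_empty_type
  | succ m ih =>
    intro hm
    have hind := ih (by omega)
    rw [linearIndependent_fin_succ']
    refine ⟨by exact hind, ?_⟩
    show (f ^ m) l ∉ Submodule.span F (Set.range fun t : Fin m => (f ^ (t : ℕ)) l)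
    intro hmem
    set W := Submodule.span F (Set.range fun t : Fin m => (f ^ (t : ℕ)) l) with hW
    have hWinv : ∀ w ∈ W, f w ∈ W := by
      intro w hw
      refine Submodule.span_induction (p := fun w _ => f w ∈ W) ?_ ?_ ?_ ?_ hw
      · rintro _ ⟨t, rfl⟩
        rw [← Module.End.mul_apply, ← pow_succ']
        by_cases ht : (t : ℕ) + 1 < m
        · exact Submodule.subset_span ⟨⟨(t : ℕ) + 1, ht⟩, rfl⟩
        · rw [show (t : ℕ) + 1 = m by omega]; exact hmem
      · simp
      · intro _ _ _ _ h1 h2; rw [map_add]; exact W.add_mem h1 h2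
      · intro c _ _ h1; rw [map_smul]; exact W.smul_mem c h1
    have hlW : l ∈ W := by
      rcases Nat.eq_zero_or_pos m with rfl | hpos
      · simpa using hmem
      · exact Submodule.subset_span ⟨⟨0, hpos⟩, by simp⟩
    set fW : Module.End F W := f.restrict hWinv with hfW
    have hpow : fW ^ r = 1 := by
      have : ∀ k : ℕ, ∀ u : W, ((fW ^ k) u : V) = (f ^ k) u.1 := by
        intro k
        induction k with
        | zero => intro u; rfl
        | succ k ih => intro u; rw [pow_succ, pow_succ, Module.End.mul_apply, ih]; rfl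
      refine LinearMap.ext fun u => Subtype.ext ?_
      rw [this, hf]; rfl
    have hdvd := Semisimple.orderOf_dvd_finrank_range hrF hpow
    have hle : Module.finrank F (LinearMap.range (fW - (1 : F) • 1)) ≤ m :=
      (Submodule.finrank_le _).trans ((finrank_range_le_card _).trans (by simp))
    have hpos : 0 < Module.finrank F (LinearMap.range (fW - (1 : F) • 1)) := by
      rw [Module.finrank_pos_iff_exists_ne_zero]
      refine ⟨⟨(fW - (1 : F) • 1) ⟨l, hlW⟩, LinearMap.mem_range_self _ _⟩, fun h => hl ?_⟩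
      have h2 := congrArg (fun w => ((w : W) : V)) (congrArg Subtype.val h)
      simp [hfW, sub_eq_zero] at h2
      exact h2
    have := Nat.le_of_dvd hpos hdvd
    omega

theorem rank_ge_of_pow_eq_one {a b : ℕ} (hrF : (r : F) ≠ 0) {g : Matrix (Fin a) (Fin a) F} (hg : g ^ r = 1)
    (hg1 : g ≠ 1) (h : Matrix (Fin b) (Fin b) F) (hh : IsUnit h.det) (c : F) :
    (orderOf (Fintype.card F : ZMod r) - 1) * b ≤ (g ⊗ₖ h - c • 1).rank := by
  have hi := Semisimple.orderOf_card_pos (F := F) (r := r) hrF
  set f : Module.End F (Fin a → F) := Matrix.toLinAlgEquiv' gᵀ with hf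
  have hfr : f ^ r = 1 := by rw [hf, ← map_pow, ← Matrix.transpose_pow, hg, Matrix.transpose_one, map_one]
  have hpow : ∀ (k : ℕ) (v : Fin a → F), (f ^ k) v = v ᵥ* (g ^ k) := fun k v => by
    rw [hf, ← map_pow, Matrix.toLinAlgEquiv'_apply, ← Matrix.transpose_pow, Matrix.mulVec_transpose]
  obtain ⟨l, hl⟩ : ∃ l, f l ≠ l := by
    by_contra hc
    push Not at hc
    have : f = 1 := LinearMap.ext hc
    rw [hf] at this
    exact hg1 (Matrix.transpose_injective
      ((Matrix.toLinAlgEquiv'.injective (this.trans (map_one _).symm)).trans Matrix.transpose_one.symm))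
  have hind := linearIndependent_orbit hrF hfr hl _ (le_refl (orderOf (Fintype.card F : ZMod r)))
  refine rank_ge_cyclic g l ?_ h hh c
  have hind' := hind.comp (Fin.cast (Nat.sub_add_cancel hi)) (Fin.cast_injective _)
  simpa [Function.comp_def, hpow] using hind'

end order

theorem rank_kronecker_comm {a b : ℕ} (g : Matrix (Fin a) (Fin a) F) (h : Matrix (Fin b) (Fin b) F) (c : F) :
    (g ⊗ₖ h - c • 1).rank = (h ⊗ₖ g - c • 1).rank := by
  have : h ⊗ₖ g - c • (1 : Matrix (Fin b × Fin a) (Fin b × Fin a) F) =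
      Matrix.reindex (Equiv.prodComm _ _) (Equiv.prodComm _ _) (g ⊗ₖ h - c • 1) := by
    ext ⟨j, i⟩ ⟨j', i'⟩
    simp [Matrix.one_apply, mul_comm, and_comm]
  rw [this, Matrix.rank_reindex]

theorem kronecker_pow_scalar {a b r : ℕ} [NeZero a] [NeZero b] {A : GL (Fin a) F} {B : GL (Fin b) F}
    (h : ((A : Matrix (Fin a) (Fin a) F) ⊗ₖ (B : Matrix (Fin b) (Fin b) F)) ^ r = 1) :
    ∃ s : F, s ≠ 0 ∧ (A : Matrix (Fin a) (Fin a) F) ^ r = s • 1 := by
  rw [kronecker_pow] at h
  obtain ⟨j₁, j₂, hj⟩ : ∃ j₁ j₂, ((B : Matrix (Fin b) (Fin b) F) ^ r) j₁ j₂ ≠ 0 := by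
    by_contra hc
    push Not at hc
    refine (B ^ r).ne_zero ?_
    rw [Units.val_pow_eq_pow_val]
    exact Matrix.ext hc
  set s := (if j₁ = j₂ then (1 : F) else 0) / ((B : Matrix (Fin b) (Fin b) F) ^ r) j₁ j₂ with hs
  have he : (A : Matrix (Fin a) (Fin a) F) ^ r = s • 1 := by
    refine Matrix.ext fun i i' => ?_
    have := congrFun (congrFun h (i, j₁)) (i', j₂)
    simp only [Matrix.kronecker_apply, Matrix.one_apply, Prod.mk.injEq] at this
    rw [Matrix.smul_apply, smul_eq_mul, hs, Matrix.one_apply, div_mul_eq_mul_div, eq_div_iff hj, this]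
    by_cases h1 : i = i' <;> by_cases h2 : j₁ = j₂ <;> simp [h1, h2]
  refine ⟨s, fun h0 => (A ^ r).ne_zero ?_, he⟩
  rw [Units.val_pow_eq_pow_val, he, h0, zero_smul]

open Polynomial in
/-- An irreducible polynomial of odd degree over a finite field with a common zero at `x` and `x⁻¹` has root `1` or `-1`. -/
theorem eval_eq_zero_of_reciprocal [Finite F] {κ : Type*} [Fintype κ] [DecidableEq κ] {P : F[X]} (hP : Irreducible P)
    (hodd : Odd P.natDegree) {x y : Matrix κ κ F} (hyx : y * x = 1) {u : κ → F} (hu : u ≠ 0)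
    (h1 : aeval x P *ᵥ u = 0) (h2 : aeval y P *ᵥ u = 0) : P.eval 1 = 0 ∨ P.eval (-1) = 0 := by
  classical
  haveI : Fact (Irreducible P) := ⟨hP⟩
  have hxy : x * y = 1 := mul_eq_one_comm.1 hyx
  letI : Invertible x := ⟨y, hyx, hxy⟩
  have hrev : aeval x P.reverse *ᵥ u = 0 := by
    have key : aeval x P.reverse = x ^ P.natDegree * aeval y P := by
      rw [aeval_eq_sum_range' (n := P.natDegree + 1) (Nat.lt_succ_of_le (reverse_natDegree_le P)),
        aeval_eq_sum_range, Finset.mul_sum]
      rw [← Finset.sum_range_reflect (fun k => x ^ P.natDegree * P.coeff k • y ^ k) (P.natDegree + 1)]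
      refine Finset.sum_congr rfl fun k hk => ?_
      have hk' : k ≤ P.natDegree := Nat.lt_succ_iff.1 (Finset.mem_range.1 hk)
      rw [coeff_reverse, revAt_le hk', Nat.add_sub_cancel, mul_smul_comm]
      congr 1
      conv_rhs => rw [show P.natDegree = k + (P.natDegree - k) by omega]
      rw [Nat.add_sub_cancel_left, pow_add, mul_assoc, ← (show Commute x y from hxy.trans hyx.symm).mul_pow,
        hxy, one_pow, mul_one]
    rw [key, ← Matrix.mulVec_mulVec, h2, Matrix.mulVec_zero]
  have hdvd : P ∣ P.reverse := by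
    by_cases hd : P ∣ P.reverse
    swap
    · obtain ⟨A, B, hAB⟩ := hP.coprime_iff_not_dvd.2 hd
      refine absurd ?_ hu
      calc u = aeval x (A * P + B * P.reverse) *ᵥ u := by rw [hAB, map_one, Matrix.one_mulVec]
        _ = 0 := by
          rw [map_add, map_mul, map_mul, Matrix.add_mulVec, ← Matrix.mulVec_mulVec, ← Matrix.mulVec_mulVec, h1,
            hrev, Matrix.mulVec_zero, Matrix.mulVec_zero, add_zero]
    · exact hd
  set α := AdjoinRoot.root P with hα
  have hroot : P.eval₂ (algebraMap F (AdjoinRoot P)) α = 0 := AdjoinRoot.eval₂_root P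
  have hroot' : P.reverse.eval₂ (algebraMap F (AdjoinRoot P)) α = 0 :=
    eval₂_eq_zero_of_dvd_of_eval₂_eq_zero _ α hdvd hroot
  by_cases h0 : α = 0
  · -- then `P` is associated to `X`, and `x` is singular
    exfalso
    have hc : P.coeff 0 = 0 := by
      have : (aeval α) P = 0 := hroot
      rw [h0, aeval_def, eval₂_at_zero, map_eq_zero] at this
      exact this
    have hX : Polynomial.X ∣ P := X_dvd_iff.2 hc
    obtain ⟨Q, hQ⟩ := hX
    have hQu : IsUnit Q := (hP.isUnit_or_isUnit hQ).resolve_left Polynomial.not_isUnit_X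
    obtain ⟨q, hq, rfl⟩ := Polynomial.isUnit_iff.1 hQu
    rw [hQ, map_mul, aeval_X, aeval_C, ← Matrix.mulVec_mulVec] at h1
    have h3 := congrArg (y *ᵥ ·) h1
    simp only [Matrix.mulVec_mulVec, Matrix.mulVec_zero] at h3
    rw [← mul_assoc, hyx, one_mul, Algebra.algebraMap_eq_smul_one, Matrix.smul_mulVec, Matrix.one_mulVec] at h3
    exact hu ((smul_eq_zero.1 h3).resolve_left hq.ne_zero)
  letI : Invertible α := invertibleOfNonzero h0
  have hinv : P.eval₂ (algebraMap F (AdjoinRoot P)) α⁻¹ = 0 := by
    have := (eval₂_reverse_eq_zero_iff (algebraMap F (AdjoinRoot P)) α⁻¹ (f := P)).1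
    letI : Invertible α⁻¹ := invertibleOfNonzero (inv_ne_zero h0)
    refine (eval₂_reverse_eq_zero_iff (algebraMap F (AdjoinRoot P)) α⁻¹ P).1 ?_
    rw [invOf_eq_inv, inv_inv]
    exact hroot'
  haveI : FiniteDimensional F (AdjoinRoot P) := (AdjoinRoot.powerBasis hP.ne_zero).finite
  haveI : Finite (AdjoinRoot P) := Module.finite_of_finite F
  let σ : AdjoinRoot P →ₐ[F] AdjoinRoot P := AdjoinRoot.liftAlgHom P (Algebra.ofId F _) α⁻¹ hinv
  let e : AdjoinRoot P ≃ₐ[F] AdjoinRoot P :=
    AlgEquiv.ofBijective σ (Finite.injective_iff_bijective.1 σ.toRingHom.injective)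
  have he : e α = α⁻¹ := by
    show σ α = α⁻¹
    simp [σ, hα]
  have he2 : e ^ 2 = 1 := by
    refine AlgEquiv.coe_algHom_injective (AdjoinRoot.algHom_ext ?_)
    show e (e α) = α
    rw [he, map_inv₀, he, inv_inv]
  have hcard : Nat.card (AdjoinRoot P ≃ₐ[F] AdjoinRoot P) = P.natDegree := by
    rw [IsGalois.card_aut_eq_finrank, (AdjoinRoot.powerBasis hP.ne_zero).finrank,
      AdjoinRoot.powerBasis_dim]
  have he1 : e = 1 := by
    have h' : e ^ Nat.card (AdjoinRoot P ≃ₐ[F] AdjoinRoot P) = 1 := pow_card_eq_one'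
    rw [hcard] at h'
    obtain ⟨k, hk⟩ := hodd
    rw [hk, pow_succ, pow_mul, he2, one_pow, one_mul] at h'
    exact h'
  rw [he1] at he
  have hα2 : α * α = 1 := by
    nth_rw 1 [show α = α⁻¹ from he]
    exact inv_mul_cancel₀ h0
  rcases mul_self_eq_one_iff.1 hα2 with h | h
  · left
    rw [h, show (1 : AdjoinRoot P) = algebraMap F (AdjoinRoot P) 1 from (map_one _).symm, eval₂_at_apply,
      map_eq_zero] at hroot
    exact hroot
  · right
    rw [h, show (-1 : AdjoinRoot P) = algebraMap F (AdjoinRoot P) (-1) by simp, eval₂_at_apply,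
      map_eq_zero] at hroot
    exact hroot

end CfsgLib.Classical.PrimeDerangement.Tensor
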