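import Cfsg.Agent.Classical.PrimeDerangement.Tensor

/-!
Which prime orders are covered by the conjugates of the stabiliser of a tensor decomposition.
-/

set_option autoImplicit false

namespace CfsgLib.Classical.PrimeDerangement.Tensor

open Matrix
open scoped Kronecker

variable {F : Type*} [Field F] {n a b : ℕ} {e : Fin n ≃ Fin a × Fin b} {P : GL (Fin n) F}

theorem mem_sl {x : GL (Fin n) F} :
    x ∈ Cfsg.Geo.specialLinear (Fin n) F ↔ (x : Matrix (Fin n) (Fin n) F).det = 1 := by
  rw [Cfsg.Geo.specialLinear, MonoidHom.mem_ker, Units.ext_iff]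
  rfl

theorem not_conj_of_rank {x : GL (Fin n) F} {c₁ c₂ : F}
    (h1 : ((x : Matrix (Fin n) (Fin n) F) - c₁ • 1).rank < b)
    (h2 : ¬ a ∣ ((x : Matrix (Fin n) (Fin n) F) - c₂ • 1).rank) (g : GL (Fin n) F) :
    g⁻¹ * x * g ∉ Cfsg.Geo.tensorProductSubgroup a b e P := fun h =>
  (rank_dichotomy h).elim (fun k => absurd (k c₁) (not_le.2 h1)) (fun k => h2 (k c₂))

theorem rank_diag (d : Fin n → F) (c : F) :
    (Matrix.diagonal d - c • (1 : Matrix (Fin n) (Fin n) F)).rank = Nat.card {j // d j ≠ c} := by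
  classical
  rw [← Matrix.diagonal_one, ← Matrix.diagonal_smul, Matrix.diagonal_sub, Matrix.rank_diagonal,
    Nat.card_eq_fintype_card]
  exact Fintype.card_congr (Equiv.subtypeEquivRight fun j => by simp [sub_ne_zero])

/-- A diagonal element outside all conjugates. -/
theorem exists_diag_derangement {r : ℕ} (d : Fin n → F) (hdet : ∏ j, d j = 1) (z : F) (hz : ∀ j, d j ^ r = z)
    {c₁ c₂ : F} (h1 : Nat.card {j // d j ≠ c₁} < b) (h2 : ¬ a ∣ Nat.card {j // d j ≠ c₂}) :
    ∃ x ∈ Cfsg.Geo.specialLinear (Fin n) F,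
      (∃ z : F, ((x ^ r : GL (Fin n) F) : Matrix (Fin n) (Fin n) F) = z • 1) ∧
      (∀ z : F, (x : Matrix (Fin n) (Fin n) F) ≠ z • 1) ∧
      ∀ g : GL (Fin n) F, g⁻¹ * x * g ∉ Cfsg.Geo.tensorProductSubgroup a b e P := by
  classical
  have hd : (Matrix.diagonal d).det ≠ 0 := by rw [Matrix.det_diagonal, hdet]; exact one_ne_zero
  let x : GL (Fin n) F := Matrix.GeneralLinearGroup.mkOfDetNeZero (Matrix.diagonal d) hd
  have hx : (x : Matrix (Fin n) (Fin n) F) = Matrix.diagonal d := rfl
  refine ⟨x, mem_sl.2 (by rw [hx, Matrix.det_diagonal, hdet]), ⟨z, ?_⟩, fun t ht => ?_,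
    not_conj_of_rank (c₁ := c₁) (c₂ := c₂) (by rw [hx, rank_diag]; exact h1) (by rw [hx, rank_diag]; exact h2)⟩
  · rw [Units.val_pow_eq_pow_val, hx, Matrix.diagonal_pow, ← Matrix.diagonal_one, ← Matrix.diagonal_smul]
    congr 1
    funext j
    simp [hz]
  · have hdt : ∀ j, d j = t := fun j => by
      have := congrFun (congrFun (hx ▸ ht) j) j
      simpa using this
    refine h2 ?_
    by_cases htc : t = c₂
    · have : IsEmpty {j // d j ≠ c₂} := ⟨fun j => j.2 (by rw [hdt, htc])⟩
      simp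
    · rw [Nat.card_congr (Equiv.subtypeUnivEquiv fun j => by rw [hdt]; exact htc), Nat.card_eq_fintype_card,
        Fintype.card_congr e, Fintype.card_prod, Fintype.card_fin]
      exact dvd_mul_right a _

/-- A transvection is outside all conjugates. -/
theorem exists_transvection_derangement {p : ℕ} [CharP F p] (hn : 2 ≤ n) (ha : 2 ≤ a) (hb : 1 < b) :
    ∃ x ∈ Cfsg.Geo.specialLinear (Fin n) F,
      (∃ z : F, ((x ^ p : GL (Fin n) F) : Matrix (Fin n) (Fin n) F) = z • 1) ∧
      (∀ z : F, (x : Matrix (Fin n) (Fin n) F) ≠ z • 1) ∧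
      ∀ g : GL (Fin n) F, g⁻¹ * x * g ∉ Cfsg.Geo.tensorProductSubgroup a b e P := by
  classical
  set i : Fin n := ⟨0, by omega⟩
  set j : Fin n := ⟨1, by omega⟩
  have hij : i ≠ j := by simp [i, j, Fin.ext_iff]
  have hd : (Matrix.transvection i j (1 : F)).det = 1 := Matrix.det_transvection_of_ne i j hij 1
  let x : GL (Fin n) F := Matrix.GeneralLinearGroup.mkOfDetNeZero _ (by rw [hd]; exact one_ne_zero :
    (Matrix.transvection i j (1 : F)).det ≠ 0)
  have hx : (x : Matrix (Fin n) (Fin n) F) = 1 + Matrix.single i j 1 := rfl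
  have hr : ((x : Matrix (Fin n) (Fin n) F) - (1 : F) • 1).rank = 1 := by
    rw [hx, one_smul, add_sub_cancel_left]
    have hii : (Matrix.single i i (1 : F)).rank = 1 := by
      rw [show Matrix.single i i (1 : F) = Matrix.diagonal (Pi.single i 1) from (Matrix.diagonal_single i 1).symm,
        Matrix.rank_diagonal]
      refine Fintype.card_eq_one_iff.2 ⟨⟨i, by simp⟩, fun k => Subtype.ext ?_⟩
      by_contra hk
      exact k.2 (by simp [hk])
    refine le_antisymm ?_ ?_
    · have := Matrix.rank_mul_le_left (Matrix.single i i (1 : F)) (Matrix.single i j (1 : F))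
      rwa [Matrix.single_mul_single_same, one_mul, hii] at this
    · have := Matrix.rank_mul_le_left (Matrix.single i j (1 : F)) (Matrix.single j i (1 : F))
      rwa [Matrix.single_mul_single_same, one_mul, hii] at this
  refine ⟨x, mem_sl.2 hd, ⟨1, ?_⟩, fun t ht => ?_, not_conj_of_rank (c₁ := 1) (c₂ := 1) (by omega)
    (by rw [hr, Nat.dvd_one]; omega)⟩
  · have hpow : ∀ k : ℕ, (1 + Matrix.single i j (1 : F)) ^ k = 1 + (k : F) • Matrix.single i j (1 : F) := by
      intro k
      induction k with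
      | zero => simp
      | succ k ih =>
        rw [pow_succ, ih, mul_add, mul_one, add_mul, one_mul, Matrix.smul_mul,
          (show Matrix.single i j (1 : F) * Matrix.single i j (1 : F) = 0 by simp [hij.symm]), smul_zero, add_zero, Nat.cast_succ, add_smul, one_smul,
          add_assoc]
    rw [Units.val_pow_eq_pow_val, hx, hpow, CharP.cast_eq_zero, zero_smul, add_zero, one_smul]
  · have := congrFun (congrFun (hx ▸ ht) i) j
    simp [Matrix.one_apply, hij] at this

/-- Conjugation into the stabiliser inside the special linear group. -/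
theorem conj_tensor {x : GL (Fin n) F} (hxs : x ∈ Cfsg.Geo.specialLinear (Fin n) F) {Q M : Matrix (Fin n) (Fin n) F}
    (hQ : Q.det ≠ 0) (hxQ : (x : Matrix (Fin n) (Fin n) F) * Q = Q * M) {A : Matrix (Fin a) (Fin a) F}
    {B : Matrix (Fin b) (Fin b) F} (hM : Matrix.reindex e e M = A ⊗ₖ B)
    (hC : ∀ δ : F, δ ≠ 0 → ∃ C : Matrix (Fin n) (Fin n) F, C * M = M * C ∧ C.det = δ) :
    ∃ g ∈ Cfsg.Geo.specialLinear (Fin n) F, g⁻¹ * x * g ∈ Cfsg.Geo.tensorProductSubgroup a b e P := by
  have hP : (P : Matrix (Fin n) (Fin n) F).det ≠ 0 := ((Matrix.isUnit_iff_isUnit_det _).1 P.isUnit).ne_zero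
  obtain ⟨C, hCM, hCd⟩ := hC ((P : Matrix (Fin n) (Fin n) F).det / Q.det) (div_ne_zero hP hQ)
  have hQC : (Q * C).det = (P : Matrix (Fin n) (Fin n) F).det := by
    rw [Matrix.det_mul, hCd, mul_div_cancel₀ _ hQ]
  have hQC0 : (Q * C).det ≠ 0 := hQC ▸ hP
  let U : GL (Fin n) F := Matrix.GeneralLinearGroup.mkOfDetNeZero (Q * C) hQC0
  have hxU : (x : Matrix (Fin n) (Fin n) F) * (U : Matrix (Fin n) (Fin n) F) = (U : Matrix (Fin n) (Fin n) F) * M := by
    show (x : Matrix (Fin n) (Fin n) F) * (Q * C) = Q * C * M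
    rw [← mul_assoc, hxQ, mul_assoc, ← hCM, ← mul_assoc]
  have hdetU : Matrix.GeneralLinearGroup.det U = Matrix.GeneralLinearGroup.det P := Units.ext hQC
  refine ⟨U * P⁻¹, MonoidHom.mem_ker.2 (by rw [map_mul, map_inv, hdetU, mul_inv_cancel]),
    (mem_tensor e P _).2 ?_⟩
  have hy : ((coord e P ((U * P⁻¹)⁻¹ * x * (U * P⁻¹)) : GL (Fin a × Fin b) F) : Matrix (Fin a × Fin b) (Fin a × Fin b) F) =
      A ⊗ₖ B := by
    rw [coord_coe, ← hM, ← Units.val_mul, ← Units.val_mul]
    congr 1
    rw [show P⁻¹ * ((U * P⁻¹)⁻¹ * x * (U * P⁻¹)) * P = U⁻¹ * (x * U) by group, Units.val_mul, Units.val_mul, hxU,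
      ← mul_assoc, Units.inv_mul, one_mul]
  have hd := ((Matrix.isUnit_iff_isUnit_det _).1
    (coord e P ((U * P⁻¹)⁻¹ * x * (U * P⁻¹))).isUnit).ne_zero
  rw [hy, Matrix.det_kronecker, mul_ne_zero_iff] at hd
  by_cases hb : b = 0
  · subst hb
    haveI : IsEmpty (Fin a × Fin 0) := inferInstance
    exact ⟨1, 1, Matrix.ext fun i => isEmptyElim i⟩
  by_cases ha : a = 0
  · subst ha
    exact ⟨1, 1, Matrix.ext fun i => i.1.elim0⟩
  simp only [Fintype.card_fin, pow_ne_zero_iff hb, pow_ne_zero_iff ha] at hd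
  exact ⟨Matrix.GeneralLinearGroup.mkOfDetNeZero A hd.1, Matrix.GeneralLinearGroup.mkOfDetNeZero B hd.2, hy⟩

/-- An element squaring to a square scalar is diagonalisable. -/
theorem exists_diagonalisation (h2 : (2 : F) ≠ 0) {x : Matrix (Fin n) (Fin n) F} {c : F} (hc : c ≠ 0)
    (hx : x * x = (c * c) • 1) :
    ∃ (Q : Matrix (Fin n) (Fin n) F) (d : Fin n → F), Q.det ≠ 0 ∧ x * Q = Q * Matrix.diagonal d ∧
      ∀ j, d j = c ∨ d j = -c := by
  classical
  set f := x.mulVecLin
  let K := LinearMap.ker (f - c • LinearMap.id)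
  let L := LinearMap.ker (f + c • LinearMap.id)
  have hKm : ∀ v, v ∈ K ↔ x *ᵥ v = c • v := fun v => by simp [K, f, sub_eq_zero]
  have hLm : ∀ v, v ∈ L ↔ x *ᵥ v = -c • v := fun v => by simp [L, f, add_eq_zero_iff_eq_neg]
  have hcompl : IsCompl K L := by
    refine ⟨Submodule.disjoint_def.2 fun v hv hv' => ?_, codisjoint_iff.2 (eq_top_iff.2 fun v _ => ?_)⟩
    · have := ((hKm v).1 hv).symm.trans ((hLm v).1 hv')
      rw [neg_smul, eq_neg_iff_add_eq_zero, ← add_smul, smul_eq_zero] at this
      exact this.resolve_left (by rw [← two_mul]; exact mul_ne_zero h2 hc)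
    · refine Submodule.mem_sup.2 ⟨(2 * c)⁻¹ • (c • v + x *ᵥ v), (hKm _).2 ?_,
        (2 * c)⁻¹ • (c • v - x *ᵥ v), (hLm _).2 ?_, ?_⟩
      · rw [Matrix.mulVec_smul, Matrix.mulVec_add, Matrix.mulVec_smul, Matrix.mulVec_mulVec, hx, Matrix.smul_mulVec,
          Matrix.one_mulVec]
        module
      · rw [Matrix.mulVec_smul, Matrix.mulVec_sub, Matrix.mulVec_smul, Matrix.mulVec_mulVec, hx, Matrix.smul_mulVec,
          Matrix.one_mulVec]
        module
      · rw [← smul_add, add_add_sub_cancel, ← add_smul, smul_smul, ← two_mul,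
          inv_mul_cancel₀ (mul_ne_zero h2 hc), one_smul]
  let B₀ := ((Module.finBasis F K).prod (Module.finBasis F L)).map (Submodule.prodEquivOfIsCompl K L hcompl)
  have hcard : Module.finrank F K + Module.finrank F L = n := by
    have := Module.finrank_eq_card_basis B₀
    simpa using this.symm
  let ε : Fin (Module.finrank F K) ⊕ Fin (Module.finrank F L) ≃ Fin n := finSumFinEquiv.trans (finCongr hcard)
  let B := B₀.reindex ε
  refine ⟨Matrix.of fun i j => B j i, fun j => Sum.elim (fun _ => c) (fun _ => -c) (ε.symm j), ?_, ?_, fun j => ?_⟩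
  · have : IsUnit (Matrix.of fun i j => B j i) :=
      Matrix.linearIndependent_cols_iff_isUnit.1 B.linearIndependent
    exact ((Matrix.isUnit_iff_isUnit_det _).1 this).ne_zero
  · ext i j
    rw [Matrix.mul_diagonal]
    have : x *ᵥ B j = (Sum.elim (fun _ => c) (fun _ => -c) (ε.symm j) : F) • B j := by
      simp only [B, Module.Basis.reindex_apply]
      rcases ε.symm j with k | k
      · rw [show B₀ (Sum.inl k) = (Module.finBasis F K k : Fin n → F) by simp [B₀]]
        exact (hKm _).1 (Submodule.coe_mem _)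
      · rw [show B₀ (Sum.inr k) = (Module.finBasis F L k : Fin n → F) by simp [B₀]]
        exact (hLm _).1 (Submodule.coe_mem _)
    have := congrFun this i
    simp only [Matrix.mulVec, dotProduct, Pi.smul_apply, smul_eq_mul] at this
    simp only [Matrix.mul_apply, Matrix.of_apply]
    rw [this, mul_comm]
  · beta_reduce; generalize ε.symm j = w; rcases w with k | k <;> simp

/-- Involutions modulo scalars with square scalar part. -/
theorem conj_of_sq (h2 : (2 : F) ≠ 0) (hn : 0 < n) (hn2 : n = 2 * b) (ha2 : a = 2)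
    (hnc : ∀ c : F, c ^ n ≠ -1) {x : GL (Fin n) F} (hxs : x ∈ Cfsg.Geo.specialLinear (Fin n) F) {c : F}
    (hc : c ≠ 0) (hx : (x : Matrix (Fin n) (Fin n) F) * (x : Matrix (Fin n) (Fin n) F) = (c * c) • 1) :
    ∃ g ∈ Cfsg.Geo.specialLinear (Fin n) F, g⁻¹ * x * g ∈ Cfsg.Geo.tensorProductSubgroup a b e P := by
  classical
  obtain ⟨Q, d, hQ, hxQ, hd⟩ := exists_diagonalisation h2 hc hx
  have hcc : c ≠ -c := fun h => mul_ne_zero h2 hc (by linear_combination h)
  set s := Finset.univ.filter fun j => d j = -c with hs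
  have hprod : ∏ j, d j = c ^ n * (-1) ^ s.card := by
    have : ∀ j, d j = c * (if j ∈ s then -1 else 1) := fun j => by
      rcases hd j with h | h <;> simp [hs, h, hcc]
    rw [Finset.prod_congr rfl fun j _ => this j, Finset.prod_mul_distrib, Finset.prod_const, Finset.card_univ,
      Fintype.card_fin, Finset.prod_ite_mem, Finset.univ_inter, Finset.prod_const]
  have hdet : ∏ j, d j = 1 := by
    have := congrArg Matrix.det hxQ
    rw [Matrix.det_mul, Matrix.det_mul, Matrix.det_diagonal, mem_sl.1 hxs, one_mul] at this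
    exact (mul_eq_left₀ hQ).1 this.symm
  obtain ⟨k, hk⟩ : Even s.card := by
    rcases Nat.even_or_odd s.card with h | h
    · exact h
    · rw [hdet, h.neg_one_pow, mul_neg_one] at hprod
      exact absurd (by linear_combination hprod) (hnc c)
  have hkb : k ≤ b := by
    have := Finset.card_le_univ s
    rw [Fintype.card_fin] at this
    omega
  set q : Fin n → Prop := fun j => ((e j).2 : ℕ) < k with hq
  have hqc : Fintype.card {j // q j} = Fintype.card {j // j ∈ s} := by
    rw [Fintype.card_coe, hk,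
      Fintype.card_congr (e.subtypeEquiv (q := fun w : Fin a × Fin b => (w.2 : ℕ) < k) (fun j => Iff.rfl)),
      Fintype.card_subtype,
      show (Finset.univ.filter fun w : Fin a × Fin b => (w.2 : ℕ) < k) =
          (Finset.univ : Finset (Fin a)) ×ˢ (Finset.univ.filter fun l : Fin b => (l : ℕ) < k) by ext w; simp,
      Finset.card_product, Finset.card_univ, Fintype.card_fin,
      show (Finset.univ.filter fun l : Fin b => (l : ℕ) < k).card = k by rw [Fin.card_filter_val_lt]; omega, ha2]
    omega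
  obtain ⟨η⟩ := Fintype.card_eq.1 hqc
  set σ : Equiv.Perm (Fin n) := η.extendSubtype with hσ
  set d₁ : Fin n → F := fun j => if q j then -c else c with hd₁
  have hdσ : ∀ j, d (σ j) = d₁ j := fun j => by
    by_cases h : q j
    · have := Equiv.extendSubtype_mem η j h
      rw [hd₁]
      simpa [hs, h] using this
    · have := Equiv.extendSubtype_not_mem η j h
      rw [hd₁]
      simp only [h, if_false]
      exact (hd _).resolve_right fun h' => this (by simp [hs, hσ.symm ▸ h'])
  refine conj_tensor (Q := Q.submatrix id σ) (M := Matrix.diagonal d₁) hxs ?_ ?_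
    (A := (1 : Matrix (Fin a) (Fin a) F)) (B := Matrix.diagonal fun l : Fin b => if (l : ℕ) < k then -c else c) ?_ ?_
  · rw [Matrix.det_permute']
    refine mul_ne_zero ?_ hQ
    rcases Int.units_eq_one_or (Equiv.Perm.sign σ) with h | h <;> simp [h]
  · ext i j
    have := congrFun (congrFun hxQ i) (σ j)
    rw [Matrix.mul_diagonal] at this ⊢
    rw [← hdσ]
    simpa [Matrix.mul_apply] using this
  · rw [← Matrix.diagonal_one, Matrix.diagonal_kronecker_diagonal]
    simp only [Matrix.reindex_apply, Matrix.submatrix_diagonal_equiv]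
    congr 1
    funext w
    simp [hd₁, hq]
  · intro δ _
    refine ⟨Matrix.diagonal (Function.update 1 (⟨0, hn⟩ : Fin n) δ), ?_, ?_⟩
    · rw [Matrix.diagonal_mul_diagonal, Matrix.diagonal_mul_diagonal]; simp [mul_comm]
    · rw [Matrix.det_diagonal, Finset.prod_update_of_mem (Finset.mem_univ _)]; simp

theorem exists_free_family {x : Matrix (Fin n) (Fin n) F} {z : F} (hx : x * x = z • 1)
    (hz : ∀ c : F, c * c ≠ z) : ∀ m : ℕ, 2 * m ≤ n + 1 → ∃ v : Fin m → Fin n → F,
      LinearIndependent F (fun w : Fin 2 × Fin m => ![v w.2, x *ᵥ v w.2] w.1) := by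
  classical
  intro m
  induction m with
  | zero => exact fun _ => ⟨Fin.elim0, linearIndependent_empty_type⟩
  | succ m ih =>
    intro hm
    obtain ⟨v, hv⟩ := ih (by omega)
    set W := Submodule.span F (Set.range fun w : Fin 2 × Fin m => ![v w.2, x *ᵥ v w.2] w.1) with hW
    have hWlt : W < ⊤ := by
      refine Submodule.lt_top_of_finrank_lt_finrank ?_
      rw [hW, finrank_span_eq_card hv, Module.finrank_fintype_fun_eq_card, Fintype.card_prod, Fintype.card_fin,
        Fintype.card_fin, Fintype.card_fin]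
      omega
    obtain ⟨u, -, hu⟩ := SetLike.exists_of_lt hWlt
    have hxx : ∀ w, x *ᵥ (x *ᵥ w) = z • w := fun w => by
      rw [Matrix.mulVec_mulVec, hx, Matrix.smul_mulVec, Matrix.one_mulVec]
    have hinv : ∀ w ∈ W, x *ᵥ w ∈ W := by
      intro w hw
      refine Submodule.span_induction (p := fun w _ => x *ᵥ w ∈ W) ?_ ?_ ?_ ?_ hw
      · rintro _ ⟨⟨i, l⟩, rfl⟩
        fin_cases i
        · exact Submodule.subset_span ⟨(1, l), rfl⟩
        · show x *ᵥ (x *ᵥ v l) ∈ W
          rw [hxx]
          exact W.smul_mem _ (Submodule.subset_span ⟨(0, l), rfl⟩)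
      · simp
      · intro _ _ _ _ h1 h2; rw [Matrix.mulVec_add]; exact W.add_mem h1 h2
      · intro t _ _ h1; rw [Matrix.mulVec_smul]; exact W.smul_mem t h1
    have key : ∀ α β : F, α • u + β • (x *ᵥ u) ∈ W → α = 0 ∧ β = 0 := by
      intro α β h
      have h' := hinv _ h
      rw [Matrix.mulVec_add, Matrix.mulVec_smul, Matrix.mulVec_smul, hxx] at h'
      have h'' : (α * α - β * β * z) • u ∈ W := by
        have := W.sub_mem (W.smul_mem α h) (W.smul_mem β h')
        convert this using 1
        module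
      have h0 : α * α - β * β * z = 0 := by
        by_contra h0
        exact hu ((W.smul_mem_iff h0).1 h'')
      by_cases hβ : β = 0
      · subst hβ
        exact ⟨mul_self_eq_zero.1 (by linear_combination h0), rfl⟩
      · exact absurd (show (α / β) * (α / β) = z by field_simp; linear_combination h0) (hz _)
    refine ⟨Fin.cons u v, Fintype.linearIndependent_iff.2 fun g hg => ?_⟩
    simp only [Fintype.sum_prod_type, Fin.sum_univ_succ, Fin.sum_univ_zero, add_zero, Fin.cons_zero, Fin.cons_succ,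
      Matrix.cons_val_zero, Matrix.cons_val_one, Fin.succ_zero_eq_one] at hg
    set S := ∑ l, g (0, Fin.succ l) • v l + ∑ l, g (1, Fin.succ l) • (x *ᵥ v l) with hS
    have hSW : S ∈ W := W.add_mem
      (W.sum_mem fun l _ => W.smul_mem _ (Submodule.subset_span ⟨(0, l), rfl⟩))
      (W.sum_mem fun l _ => W.smul_mem _ (Submodule.subset_span ⟨(1, l), rfl⟩))
    obtain ⟨h0, h1⟩ := key (g (0, 0)) (g (1, 0)) (by
      have e2 : g (0, 0) • u + g (1, 0) • (x *ᵥ u) = -S := by
        rw [eq_neg_iff_add_eq_zero, hS, ← hg]; abel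
      rw [e2]; exact W.neg_mem hSW)
    have hS0 : S = 0 := by
      rw [h0, h1] at hg
      simp only [zero_smul, zero_add] at hg
      exact hS.trans hg
    have := Fintype.linearIndependent_iff.1 hv (fun w => g (w.1, Fin.succ w.2)) (by
      rw [← hS0, hS]
      simp [Fintype.sum_prod_type, Fin.sum_univ_two])
    rintro ⟨i, l⟩
    refine Fin.cases ?_ (fun l => this (i, l)) l
    fin_cases i
    exacts [h0, h1]

/-- Involutions modulo scalars with nonsquare scalar part. -/
theorem conj_of_nonsq [Finite F] (hn2 : n = 2 * b) (hb : 0 < b) (ha2 : a = 2) {x : GL (Fin n) F}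
    (hxs : x ∈ Cfsg.Geo.specialLinear (Fin n) F) {z : F} (hz : ∀ c : F, c * c ≠ z)
    (hx : (x : Matrix (Fin n) (Fin n) F) * (x : Matrix (Fin n) (Fin n) F) = z • 1) :
    ∃ g ∈ Cfsg.Geo.specialLinear (Fin n) F, g⁻¹ * x * g ∈ Cfsg.Geo.tensorProductSubgroup a b e P := by
  classical
  subst ha2
  obtain ⟨v, hv⟩ := exists_free_family hx hz b (by omega)
  set J : Matrix (Fin 2) (Fin 2) F := !![0, z; 1, 0] with hJ
  let col : Fin n → Fin n → F := fun j => ![v (e j).2, (x : Matrix (Fin n) (Fin n) F) *ᵥ v (e j).2] (e j).1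
  have hcol : LinearIndependent F col := hv.comp e e.injective
  refine conj_tensor (Q := Matrix.of fun i j => col j i) (M := Matrix.reindex e.symm e.symm (J ⊗ₖ (1 : Matrix (Fin b) (Fin b) F)))
    hxs ?_ ?_ (A := J) (B := (1 : Matrix (Fin b) (Fin b) F)) ?_ ?_
  · exact ((Matrix.isUnit_iff_isUnit_det _).1 (Matrix.linearIndependent_cols_iff_isUnit.1 hcol)).ne_zero
  · ext i j
    obtain ⟨⟨t, l⟩, rfl⟩ := e.symm.surjective j
    have hr : ∀ G : Fin n → F, ∑ k, G k * (Matrix.reindex e.symm e.symm (J ⊗ₖ (1 : Matrix (Fin b) (Fin b) F))) k (e.symm (t, l)) =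
        G (e.symm (0, l)) * J 0 t + G (e.symm (1, l)) * J 1 t := by
      intro G
      rw [← e.symm.sum_comp]
      simp [Fintype.sum_prod_type, Fin.sum_univ_two, Matrix.kronecker_apply, Matrix.one_apply]
    rw [Matrix.mul_apply', Matrix.mul_apply, hr]
    show ((x : Matrix (Fin n) (Fin n) F) *ᵥ col (e.symm (t, l))) i = _
    fin_cases t
    · simp [col, hJ]
    · simp [col, hJ, Matrix.mulVec_mulVec, hx, Matrix.smul_mulVec, mul_comm]
  · ext w w'
    simp
  · intro δ hδ
    haveI : Fintype F := Fintype.ofFinite F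
    obtain ⟨α, β, hαβ⟩ : ∃ α β : F, α * α - z * (β * β) = δ := by
      by_cases h2 : ringChar F = 2
      · obtain ⟨c, hc⟩ := FiniteField.isSquare_of_char_two h2 z
        exact absurd hc.symm (hz c)
      · obtain ⟨α, β, h⟩ := FiniteField.exists_root_sum_quadratic (f := Polynomial.X ^ 2)
          (g := -Polynomial.C z * Polynomial.X ^ 2 - Polynomial.C δ) (by simp) (by
            have hz0 : z ≠ 0 := fun h => hz 0 (by rw [h, mul_zero])
            compute_degree!) (FiniteField.odd_card_of_char_ne_two h2)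
        simp at h
        exact ⟨α, β, by linear_combination h⟩
    refine ⟨Matrix.reindexAlgEquiv F F e.symm
      (Matrix.blockDiagonal fun l : Fin b => if l = ⟨0, hb⟩ then α • 1 + β • J else 1), ?_, ?_⟩
    · show _ * Matrix.reindexAlgEquiv F F e.symm (J ⊗ₖ (1 : Matrix (Fin b) (Fin b) F)) =
        Matrix.reindexAlgEquiv F F e.symm (J ⊗ₖ (1 : Matrix (Fin b) (Fin b) F)) * _
      rw [← map_mul, ← map_mul, Matrix.kronecker_one, ← Matrix.blockDiagonal_mul, ← Matrix.blockDiagonal_mul]
      congr 2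
      funext l
      split_ifs
      · simp [add_mul, mul_add]
      · simp
    · rw [Matrix.coe_reindexAlgEquiv, Matrix.det_reindex_self, Matrix.det_blockDiagonal,
        Finset.prod_eq_single (⟨0, hb⟩ : Fin b) (fun l _ hl => by rw [if_neg hl, Matrix.det_one])
          (fun h => absurd (Finset.mem_univ _) h), if_pos rfl, Matrix.det_fin_two]
      simp [hJ]
      linear_combination hαβ

end CfsgLib.Classical.PrimeDerangement.Tensor
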