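import Cfsg.Agent.Classical.PrimeDerangement.Diag
import Cfsg.Agent.Eq.Def_GeometricClasses
import Mathlib.GroupTheory.PGroup
import Mathlib.GroupTheory.SpecificGroups.Cyclic

/-!
Elements of prime order in three-dimensional groups and the normalizer of an extraspecial group of order 27.
-/

set_option autoImplicit false

namespace CfsgLib.Classical.PrimeDerangement.Three

open Matrix CfsgLib.Classical.PrimeDerangement

variable {F : Type*} [Field F]

/-- The three-cycle. -/
def rot : Equiv.Perm (Fin 3) := finRotate 3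

theorem rot_symm_zero : rot.symm 0 = 2 := rfl
theorem rot_symm_one : rot.symm 1 = 0 := rfl
theorem rot_symm_two : rot.symm 2 = 1 := rfl
theorem rot_zero : rot 0 = 1 := rfl
theorem rot_one : rot 1 = 2 := rfl
theorem rot_two : rot 2 = 0 := rfl

theorem det_mem_sl {g : GL (Fin 3) F} :
    g ∈ Cfsg.Geo.specialLinear (Fin 3) F ↔ Matrix.GeneralLinearGroup.det g = 1 := MonoidHom.mem_ker

theorem det_diagU (d : Fin 3 → Fˣ) : Matrix.GeneralLinearGroup.det (diagU d) = d 0 * d 1 * d 2 :=
  Units.ext (by simp [Fin.prod_univ_three])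

theorem det_rot : Matrix.GeneralLinearGroup.det (permU (F := F) rot) = 1 := by
  refine Units.ext ?_
  simp [Matrix.det_fin_three, coe_permU, rot_symm_zero, rot_symm_one, rot_symm_two]

/-- The scalar matrix. -/
def scalU (c : Fˣ) : GL (Fin 3) F := diagU fun _ => c

theorem scalU_comm (c : Fˣ) (g : GL (Fin 3) F) : scalU c * g = g * scalU c := by
  refine Units.ext (Matrix.ext fun i j => ?_)
  simp [scalU, Matrix.diagonal_mul, Matrix.mul_diagonal, mul_comm]

theorem scalU_conj (c : Fˣ) (P : GL (Fin 3) F) : P * scalU c * P⁻¹ = scalU c := by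
  rw [← scalU_comm, mul_inv_cancel_right]

theorem coe_scalU (c : Fˣ) : ((scalU c : GL (Fin 3) F) : Matrix (Fin 3) (Fin 3) F) = (c : F) • 1 := by
  rw [scalU, coe_diagU, Matrix.smul_one_eq_diagonal]

theorem eq_scalU_of_coe {g : GL (Fin 3) F} {c : Fˣ}
    (h : (g : Matrix (Fin 3) (Fin 3) F) = (c : F) • 1) : g = scalU c :=
  Units.ext (h.trans (coe_scalU c).symm)

theorem scalU_pow (c : Fˣ) (n : ℕ) : scalU c ^ n = scalU (c ^ n) := by
  induction n with
  | zero => rw [pow_zero, pow_zero]; exact eq_scalU_of_coe (by rw [Units.val_one, Units.val_one, one_smul])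
  | succ n ih => rw [pow_succ, ih, pow_succ, scalU, scalU, diagU_mul]; rfl

theorem exists_pow_eq {ω c : Fˣ} (hω : IsPrimitiveRoot ω 3) (h : c ^ 3 = 1) : ∃ i, i < 3 ∧ ω ^ i = c := by
  obtain ⟨i, hi, hi'⟩ := (IsPrimitiveRoot.coe_units_iff.2 hω).eq_pow_of_pow_eq_one
    (ξ := (c : F)) (by rw [← Units.val_pow_eq_pow_val, h, Units.val_one])
  exact ⟨i, hi, Units.ext (by rw [Units.val_pow_eq_pow_val, hi'])⟩

theorem diagU_pow (d : Fin 3 → Fˣ) (m : ℕ) : diagU d ^ m = diagU (d ^ m) := by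
  induction m with
  | zero => exact Units.ext (by simp)
  | succ m ih => rw [pow_succ, ih, diagU_mul, pow_succ]

/-- A monomial frame for the group `R`. -/
structure Frame (A : Ambient F 3) (R : Subgroup (GL (Fin 3) F)) (ω : Fˣ) where
  /-- the change of basis -/
  P : GL (Fin 3) F
  P_mem : P ∈ A.G
  a_mem : P * diagU (fun i => ω ^ (i : ℕ)) * P⁻¹ ∈ R
  b_mem : P * permU rot * P⁻¹ ∈ R
  scal_mem : scalU ω ∈ R
  gen : Subgroup.closure ({P * diagU (fun i => ω ^ (i : ℕ)) * P⁻¹, P * permU rot * P⁻¹} : Set (GL (Fin 3) F)) = R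

theorem exists_frame (A : Ambient F 3) {ω : Fˣ} (hω : IsPrimitiveRoot ω 3) (hωn : ω ∈ A.norms) (h3 : (3 : F) ≠ 0)
    {R : Subgroup (GL (Fin 3) F)} (hRG : R ≤ A.G) (hR : Nat.card R = 27) (hRe : Monoid.exponent R = 3)
    (hRna : ¬ IsMulCommutative R) : Nonempty (Frame A R ω) := by
  haveI : Fact (Nat.Prime 3) := ⟨Nat.prime_three⟩
  haveI : Finite R := Nat.finite_of_card_ne_zero (by omega)
  have hcube : ∀ g ∈ R, g ^ 3 = 1 := fun g hg => by
    have h := Monoid.pow_exponent_eq_one (⟨g, hg⟩ : R)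
    rw [hRe] at h
    exact congrArg Subtype.val h
  obtain ⟨a, ha, b, hb, hab⟩ : ∃ a ∈ R, ∃ b ∈ R, a * b ≠ b * a := by
    by_contra h
    push Not at h
    exact hRna ⟨⟨fun x y => Subtype.ext (h x x.2 y y.2)⟩⟩
  set c := a * b * a⁻¹ * b⁻¹ with hc
  have hcR : c ∈ R := R.mul_mem (R.mul_mem (R.mul_mem ha hb) (R.inv_mem ha)) (R.inv_mem hb)
  -- the commutator is central
  have hcen : (⟨c, hcR⟩ : R) ∈ Subgroup.center R := by
    have hp : IsPGroup 3 R := IsPGroup.of_card (n := 3) (by rw [hR]; rfl)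
    haveI : Nontrivial R := by rw [← Finite.one_lt_card_iff_nontrivial, hR]; norm_num
    have hdvd := Subgroup.card_subgroup_dvd_card (Subgroup.center R)
    rw [hR] at hdvd
    have hne : 1 < Nat.card (Subgroup.center R) := by
      haveI := hp.center_nontrivial
      exact Finite.one_lt_card_iff_nontrivial.2 inferInstance
    have hmul := Subgroup.card_eq_card_quotient_mul_card_subgroup (Subgroup.center R)
    rw [hR] at hmul
    have hcomm : IsMulCommutative (R ⧸ Subgroup.center R) := by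
      obtain ⟨k, hk, hk'⟩ := (Nat.dvd_prime_pow Nat.prime_three).1 (show Nat.card (Subgroup.center R) ∣ 3 ^ 3 from hdvd)
      interval_cases k <;> norm_num at hk' <;> rw [hk'] at hne hmul
      · exact absurd hne (by norm_num)
      · exact ⟨⟨IsPGroup.commutative_of_card_eq_prime_sq (p := 3) (by omega)⟩⟩
      · haveI : IsCyclic (R ⧸ Subgroup.center R) := isCyclic_of_prime_card (p := 3) (by omega)
        exact IsCyclic.commutative
      · have : Subsingleton (R ⧸ Subgroup.center R) := (Nat.card_eq_one_iff_unique.1 (by omega)).1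
        exact ⟨⟨fun x y => Subsingleton.elim _ _⟩⟩
    refine (QuotientGroup.eq_one_iff _).1 ?_
    show ((⟨a, ha⟩ * ⟨b, hb⟩ * ⟨a, ha⟩⁻¹ * ⟨b, hb⟩⁻¹ : R) : R ⧸ Subgroup.center R) = 1
    rw [QuotientGroup.mk_mul, QuotientGroup.mk_mul, QuotientGroup.mk_mul, QuotientGroup.mk_inv, QuotientGroup.mk_inv,
      hcomm.is_comm.comm ((⟨a, ha⟩ : R) : R ⧸ Subgroup.center R), mul_inv_cancel_right, mul_inv_cancel]
  have hcomm : ∀ g ∈ R, g * c = c * g := fun g hg =>
    congrArg Subtype.val ((Subgroup.mem_center_iff.1 hcen) ⟨g, hg⟩)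
  have hpow : ∀ g ∈ R, ((g : Matrix (Fin 3) (Fin 3) F)) ^ 3 =
      (((1 : Fˣ) : F) ^ 3) • (1 : Matrix (Fin 3) (Fin 3) F) := fun g hg => by
    rw [← Units.val_pow_eq_pow_val, hcube g hg, Units.val_one, Units.val_one, one_pow, one_smul]
  obtain ⟨Pc, -, ec, hPc⟩ := A.eigen 3 ω 1 hω (by norm_num) (by exact_mod_cast h3) hωn (one_mem _) c (hRG hcR)
    (hpow c hcR)
  obtain ⟨lam, w, hlam, hlam1, hw, hcw⟩ : ∃ (lam : Fˣ) (w : Fin 3 → F), lam ^ 3 = 1 ∧ lam ≠ 1 ∧ w ≠ 0 ∧
      (c : Matrix (Fin 3) (Fin 3) F).mulVec w = (lam : F) • w := by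
    obtain ⟨i, hi⟩ : ∃ i, ω ^ ec i ≠ 1 := by
      by_contra h
      push Not at h
      refine hab ?_
      have hD : diagU (fun i => 1 * ω ^ ec i) = (1 : GL (Fin 3) F) := Units.ext (by simp [h])
      rw [hD, mul_one, mul_eq_right] at hPc
      rwa [hc, mul_inv_eq_one, mul_inv_eq_iff_eq_mul] at hPc
    refine ⟨ω ^ ec i, (Pc : Matrix (Fin 3) (Fin 3) F).mulVec (Pi.single i 1),
      by rw [← pow_mul, mul_comm, pow_mul, hω.pow_eq_one, one_pow], hi, fun h => ?_, ?_⟩
    · have h' := congrArg (((Pc⁻¹ : GL (Fin 3) F) : Matrix (Fin 3) (Fin 3) F)).mulVec h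
      rw [Matrix.mulVec_mulVec, ← Units.val_mul, inv_mul_cancel, Units.val_one, Matrix.one_mulVec,
        Matrix.mulVec_zero] at h'
      simpa using congrFun h' i
    · rw [Matrix.mulVec_mulVec, ← Units.val_mul, hPc, Units.val_mul, ← Matrix.mulVec_mulVec, ← Matrix.mulVec_smul]
      congr 1
      funext j
      rcases eq_or_ne j i with rfl | h <;> simp [Matrix.mulVec_diagonal, *]
  -- an eigenvector of `a` on that eigenspace
  set X := (a : Matrix (Fin 3) (Fin 3) F) with hX
  obtain ⟨k, hk⟩ : ∃ k, comp X 3 ((1 : F) * (ω : F) ^ k) w ≠ 0 := by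
    by_contra h
    push Not at h
    apply hw
    rw [← sum_comp (x := X) (y := (1 : F)) (IsPrimitiveRoot.coe_units_iff.2 hω) (by norm_num) (by exact_mod_cast h3) w]
    exact Finset.sum_eq_zero fun k _ => h k
  set u := comp X 3 ((1 : F) * (ω : F) ^ k) w with hu
  set α : Fˣ := ω ^ k with hα
  have hau : X.mulVec u = (α : F) • u := by
    rw [hu, hα, mulVec_comp (mul_ne_zero one_ne_zero (pow_ne_zero _ ω.ne_zero)), Units.val_pow_eq_pow_val, one_mul]
    refine (hpow a ha).trans ?_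
    rw [Units.val_one, one_mul, ← pow_mul, mul_comm k 3, pow_mul, (IsPrimitiveRoot.coe_units_iff.2 hω).pow_eq_one,
      one_pow, one_pow]
  have hcu : (c : Matrix (Fin 3) (Fin 3) F).mulVec u = (lam : F) • u := by
    let W : Submodule F (Fin 3 → F) :=
      { carrier := {v | (c : Matrix (Fin 3) (Fin 3) F).mulVec v = (lam : F) • v}
        zero_mem' := by simp
        add_mem' := fun {x y} (hx : _ = _) (hy : _ = _) => show _ = _ by rw [Matrix.mulVec_add, hx, hy, smul_add]
        smul_mem' := fun d x (hx : _ = _) => show _ = _ by rw [Matrix.mulVec_smul, hx, smul_comm] }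
    refine comp_mem (W := W) (fun v (hv : _ = _) => ?_) 3 _ (show w ∈ W from hcw)
    show (c : Matrix (Fin 3) (Fin 3) F).mulVec (X.mulVec v) = (lam : F) • X.mulVec v
    rw [hX, Matrix.mulVec_mulVec, ← Units.val_mul, ← hcomm a ha, Units.val_mul, ← Matrix.mulVec_mulVec, hv,
      Matrix.mulVec_smul]
  -- the frame
  let B := (b : Matrix (Fin 3) (Fin 3) F)
  let f : Fin 3 → Fin 3 → F := fun i => (B ^ (i : ℕ)).mulVec u
  have hcb : ∀ j : ℕ, (c : Matrix (Fin 3) (Fin 3) F).mulVec ((B ^ j).mulVec u) = (lam : F) • (B ^ j).mulVec u := by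
    intro j
    rw [Matrix.mulVec_mulVec, ← Units.val_pow_eq_pow_val, ← Units.val_mul,
      ← hcomm (b ^ j) (R.pow_mem hb j), Units.val_mul, ← Matrix.mulVec_mulVec, hcu, Matrix.mulVec_smul,
      Units.val_pow_eq_pow_val]
  have hae : ∀ j : ℕ, X.mulVec ((B ^ j).mulVec u) = ((α * lam ^ j : Fˣ) : F) • (B ^ j).mulVec u := by
    intro j
    induction j with
    | zero => simp [hau]
    | succ j ih =>
      have e : a * b = c * b * a := by rw [hc]; group
      rw [pow_succ', ← Matrix.mulVec_mulVec]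
      show X.mulVec (B.mulVec _) = _
      rw [Matrix.mulVec_mulVec, hX, ← Units.val_mul, e, Units.val_mul, Units.val_mul, ← Matrix.mulVec_mulVec,
        ← Matrix.mulVec_mulVec, ← hX, ih, Matrix.mulVec_smul, Matrix.mulVec_smul]
      show _ • (c : Matrix (Fin 3) (Fin 3) F).mulVec (B.mulVec _) = _
      rw [Matrix.mulVec_mulVec, Matrix.mulVec_mulVec, mul_assoc, ← pow_succ', ← Matrix.mulVec_mulVec, hcb,
        smul_smul, ← Units.val_mul, pow_succ lam, mul_assoc, pow_succ' B, ← Matrix.mulVec_mulVec]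
  have hune : ∀ i, f i ≠ 0 := fun i h => hk (by
    have h' := congrArg (((b ^ (i : ℕ))⁻¹ : GL (Fin 3) F) : Matrix (Fin 3) (Fin 3) F).mulVec h
    simp only [f, B] at h'
    rw [← Units.val_pow_eq_pow_val, Matrix.mulVec_mulVec, ← Units.val_mul, inv_mul_cancel, Units.val_one,
      Matrix.one_mulVec, Matrix.mulVec_zero] at h'
    exact h')
  have hlam3 : IsPrimitiveRoot lam 3 := IsPrimitiveRoot.iff_orderOf.2 (orderOf_eq_prime (p := 3) hlam hlam1)
  have hlamn : ∀ j : ℕ, lam ^ j ∈ A.norms := fun j => by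
    obtain ⟨i, -, hi⟩ := exists_pow_eq hω hlam
    exact pow_mem (hi ▸ pow_mem hωn i) j
  obtain ⟨Q, hQ, haQ, hbQ⟩ := A.frame a (hRG ha) b (hRG hb) rot (fun i => α * lam ^ (i : ℕ)) f
    (fun i j h => Fin.ext (hlam3.pow_inj i.2 j.2 (mul_left_cancel h)))
    (fun i => mul_mem (pow_mem hωn k) (hlamn _)) hune (fun i => hae _) (fun i => by
      show B.mulVec ((B ^ (i : ℕ)).mulVec u) = (B ^ ((rot i : Fin 3) : ℕ)).mulVec u
      rw [Matrix.mulVec_mulVec, ← pow_succ']
      have hB : B ^ 3 = 1 := by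
        show (b : Matrix (Fin 3) (Fin 3) F) ^ 3 = 1
        rw [← Units.val_pow_eq_pow_val, hcube b hb, Units.val_one]
      fin_cases i <;> simp [rot, hB])
    (by intro i j; fin_cases i <;> fin_cases j <;>
      first | exact ⟨0, rfl⟩ | exact ⟨1, rfl⟩ | exact ⟨2, rfl⟩)
  -- the scalars
  have hscal : c = scalU lam := by
    refine Units.ext ?_
    rw [coe_scalU]
    have hP : ∀ j, (c : Matrix (Fin 3) (Fin 3) F).mulVec (f j) = (lam : F) • f j := fun j => hcb _
    have hli : LinearIndependent F f :=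
      frame_surjective (a := a) (b := b) (σ := rot) (lam := fun i => α * lam ^ (i : ℕ))
        (fun i j h => Fin.ext (hlam3.pow_inj i.2 j.2 (mul_left_cancel h))) hune fun i => hae _
    let Bs := basisOfLinearIndependentOfCardEqFinrank hli (Module.finrank_fintype_fun_eq_card F).symm
    apply Matrix.toLin'.injective
    refine Bs.ext fun j => ?_
    simp only [Bs, coe_basisOfLinearIndependentOfCardEqFinrank, Matrix.toLin'_apply, Matrix.smul_mulVec,
      Matrix.one_mulVec, hP]
  have hlamR : ∀ j : ℕ, scalU (lam ^ j) ∈ R := fun j => by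
    rw [← scalU_pow, ← hscal]; exact R.pow_mem hcR j
  obtain ⟨m, -, hm⟩ := exists_pow_eq hlam3 hω.pow_eq_one
  obtain ⟨m', -, hm'⟩ := exists_pow_eq hlam3
    (show (α⁻¹ : Fˣ) ^ 3 = 1 by rw [inv_pow, hα, ← pow_mul, mul_comm, pow_mul, hω.pow_eq_one, one_pow, inv_one])
  have hQa : a = Q * diagU (fun i : Fin 3 => α * lam ^ (i : ℕ)) * Q⁻¹ := eq_mul_inv_of_mul_eq haQ
  have hQb : b = Q * permU rot * Q⁻¹ := eq_mul_inv_of_mul_eq hbQ
  -- `a' = α⁻¹ a` or its inverse
  have ha0 : Q * diagU (fun i : Fin 3 => lam ^ (i : ℕ)) * Q⁻¹ ∈ R := by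
    have e : scalU (α⁻¹) * a = Q * diagU (fun i : Fin 3 => lam ^ (i : ℕ)) * Q⁻¹ := by
      rw [hQa, ← mul_assoc, ← mul_assoc, scalU_comm _ Q, mul_assoc Q, scalU, diagU_mul]
      congr 2
      congr 1
      funext i
      simp
    rw [← e, ← hm']
    exact R.mul_mem (hlamR _) ha
  have hae' : Q * diagU (fun i : Fin 3 => ω ^ (i : ℕ)) * Q⁻¹ ∈ R := by
    have e : (Q * diagU (fun i : Fin 3 => lam ^ (i : ℕ)) * Q⁻¹) ^ m = Q * diagU (fun i : Fin 3 => ω ^ (i : ℕ)) * Q⁻¹ := by
      rw [conj_pow]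
      congr 2
      have hd : ∀ (d : Fin 3 → Fˣ) (m : ℕ), diagU d ^ m = diagU (d ^ m) := by
        intro d m
        induction m with
        | zero => exact Units.ext (by simp)
        | succ m ih => rw [pow_succ, ih, diagU_mul, pow_succ]
      rw [hd]
      congr 1
      funext i
      rw [Pi.pow_apply, ← pow_mul, mul_comm, pow_mul, hm]
    rw [← e]
    exact R.pow_mem ha0 m
  have hbe : Q * permU rot * Q⁻¹ ∈ R := hQb ▸ hb
  refine ⟨⟨Q, hQ, hae', hbe, hm ▸ hlamR m, le_antisymm ?_ ?_⟩⟩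
  · refine (Subgroup.closure_le _).2 ?_
    rintro _ (rfl | rfl)
    · exact hae'
    · exact hbe
  · set C := Subgroup.closure ({Q * diagU (fun i : Fin 3 => ω ^ (i : ℕ)) * Q⁻¹, Q * permU rot * Q⁻¹} : Set (GL (Fin 3) F))
    have hCR : C ≤ R := (Subgroup.closure_le _).2 (by rintro _ (rfl | rfl); exacts [hae', hbe])
    haveI : Finite C := Finite.of_injective _ (Subgroup.inclusion_injective hCR)
    have hd := Subgroup.card_dvd_of_le hCR
    rw [hR] at hd
    refine (Subgroup.eq_of_le_of_card_ge hCR ?_).ge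
    rw [hR]
    obtain ⟨j, hj, hj'⟩ := (Nat.dvd_prime_pow Nat.prime_three).1 (show Nat.card C ∣ 3 ^ 3 from hd)
    rcases (show j ≤ 2 ∨ j = 3 by omega) with hj2 | rfl
    · exfalso
      have hcc : IsMulCommutative C := by
        interval_cases j
        · haveI : Subsingleton C := (Nat.card_eq_one_iff_unique.1 (by simpa using hj')).1
          exact ⟨⟨fun x y => Subsingleton.elim _ _⟩⟩
        · haveI : IsCyclic C := isCyclic_of_prime_card (p := 3) (by simpa using hj')
          exact IsCyclic.commutative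
        · exact ⟨⟨IsPGroup.commutative_of_card_eq_prime_sq (p := 3) hj'⟩⟩
      have h := hcc.is_comm.comm ⟨_, Subgroup.subset_closure (Or.inl rfl)⟩ ⟨_, Subgroup.subset_closure (Or.inr rfl)⟩
      have h' : Q * diagU (fun i : Fin 3 => ω ^ (i : ℕ)) * Q⁻¹ * (Q * permU rot * Q⁻¹) =
          Q * permU rot * Q⁻¹ * (Q * diagU (fun i : Fin 3 => ω ^ (i : ℕ)) * Q⁻¹) := congrArg Subtype.val h
      have h2 : diagU (fun i : Fin 3 => ω ^ (i : ℕ)) * permU rot = permU rot * diagU (fun i : Fin 3 => ω ^ (i : ℕ)) := by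
        apply mul_left_cancel (a := Q)
        apply mul_right_cancel (b := Q⁻¹)
        simpa [mul_assoc] using h'
      have h3' := Matrix.ext_iff.2 (congrArg Units.val h2) 1 0
      simp [coe_permU, rot_symm_zero, rot_symm_one, rot_symm_two] at h3'
      exact hω.ne_one (by norm_num) h3'
    · rw [hj']; norm_num

variable {A : Ambient F 3} {R : Subgroup (GL (Fin 3) F)} {ω : Fˣ}

theorem Frame.mem_normalizer [Finite R] (Φ : Frame A R ω) {h : GL (Fin 3) F}
    (ha : h * (Φ.P * diagU (fun i => ω ^ (i : ℕ)) * Φ.P⁻¹) * h⁻¹ ∈ R)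
    (hb : h * (Φ.P * permU rot * Φ.P⁻¹) * h⁻¹ ∈ R) : h ∈ Cfsg.Geo.subgroupNormalizer R := by
  refine Subgroup.mem_normalizer_iff_map_conj_eq.2 ?_
  refine Subgroup.eq_of_le_of_card_ge ?_ (le_of_eq ?_)
  · conv_lhs => rw [← Φ.gen, MonoidHom.map_closure]
    refine (Subgroup.closure_le _).2 ?_
    rintro _ ⟨g, (rfl | rfl), rfl⟩
    · exact ha
    · exact hb
  · exact (Nat.card_congr (Subgroup.equivMapOfInjective R _ (MulAut.conj h).injective).toEquiv)

/-- Diagonal elements with entries in a coset of the cube roots normalise `R`. -/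
theorem Frame.diag_normalizer [Finite R] (hω : IsPrimitiveRoot ω 3) (Φ : Frame A R ω) (y : Fˣ) (e : Fin 3 → ℕ) :
    Φ.P * diagU (fun i => y * ω ^ e i) * Φ.P⁻¹ ∈ Cfsg.Geo.subgroupNormalizer R := by
  set D := diagU (fun i => y * ω ^ e i)
  have key : D * permU rot = scalU (ω ^ (e 0 + 2 * e 2)) *
      diagU (fun i : Fin 3 => ω ^ ((i : ℕ) * (e 0 + e 1 + e 2))) * permU rot * D := by
    rw [mul_assoc _ (permU rot) D, permU_diagU, ← mul_assoc, scalU, diagU_mul, diagU_mul]
    congr 1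
    show diagU _ = diagU _
    congr 1
    have hmod : ∀ a b : ℕ, a % 3 = b % 3 → ω ^ a = ω ^ b := fun a b h => by
      rw [← pow_mod_orderOf, ← pow_mod_orderOf ω b, ← hω.eq_orderOf, h]
    funext i
    fin_cases i <;>
      simp only [Pi.mul_apply, Function.comp_apply, rot, Equiv.symm_apply_eq] <;>
      rw [mul_left_comm _ y, ← pow_add, ← pow_add] <;>
      refine congrArg (y * ·) (hmod _ _ ?_) <;>
      simp [show (finRotate 3).symm 0 = 2 from rfl, show (finRotate 3).symm 1 = 0 from rfl,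
        show (finRotate 3).symm 2 = 1 from rfl] <;> omega
  refine Φ.mem_normalizer ?_ ?_
  · convert Φ.a_mem using 1
    have := diagU_comm (fun i => y * ω ^ e i) (fun i : Fin 3 => ω ^ (i : ℕ))
    calc _ = Φ.P * (D * diagU (fun i : Fin 3 => ω ^ (i : ℕ)) * D⁻¹) * Φ.P⁻¹ := by group
      _ = _ := by rw [this, mul_inv_cancel_right]
  · have hd : ∀ (d : Fin 3 → Fˣ) (m : ℕ), diagU d ^ m = diagU (d ^ m) := by
      intro d m
      induction m with
      | zero => exact Units.ext (by simp)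
      | succ m ih => rw [pow_succ, ih, diagU_mul, pow_succ]
    have e1 : Φ.P * (D * permU rot * D⁻¹) * Φ.P⁻¹ = scalU (ω ^ (e 0 + 2 * e 2)) *
        (Φ.P * diagU (fun i => ω ^ (i : ℕ)) * Φ.P⁻¹) ^ (e 0 + e 1 + e 2) * (Φ.P * permU rot * Φ.P⁻¹) := by
      rw [key, mul_inv_cancel_right, conj_pow, hd]
      have : ((fun i : Fin 3 => ω ^ (i : ℕ)) ^ (e 0 + e 1 + e 2)) =
          fun i : Fin 3 => ω ^ ((i : ℕ) * (e 0 + e 1 + e 2)) := by
        funext i; rw [Pi.pow_apply, ← pow_mul]
      rw [this]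
      simp only [← mul_assoc, inv_mul_cancel_right]
      rw [← scalU_comm _ Φ.P]
    have e2 : Φ.P * D * Φ.P⁻¹ * (Φ.P * permU rot * Φ.P⁻¹) * (Φ.P * D * Φ.P⁻¹)⁻¹ =
        Φ.P * (D * permU rot * D⁻¹) * Φ.P⁻¹ := by group
    rw [e2, e1]
    refine R.mul_mem (R.mul_mem ?_ (R.pow_mem Φ.a_mem _)) Φ.b_mem
    rw [← scalU_pow]
    exact R.pow_mem Φ.scal_mem _

theorem scalU_mem_normalizer [Finite R] (c : Fˣ) (Φ : Frame A R ω) : scalU c ∈ Cfsg.Geo.subgroupNormalizer R :=
  Φ.mem_normalizer (by rw [scalU_comm, mul_inv_cancel_right]; exact Φ.a_mem)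
    (by rw [scalU_comm, mul_inv_cancel_right]; exact Φ.b_mem)

/-- Conjugate diagonalisable elements are conjugate by determinant one. -/
theorem exists_conj {x h P P' : GL (Fin 3) F} {d : Fin 3 → Fˣ} (hP : P ∈ A.G) (hP' : P' ∈ A.G)
    (hx : x * P' = P' * diagU d) (hh : h * P = P * diagU d) :
    ∃ g ∈ A.G ⊓ Cfsg.Geo.specialLinear (Fin 3) F, g⁻¹ * x * g = h := by
  let t := (Matrix.GeneralLinearGroup.det P' / Matrix.GeneralLinearGroup.det P)⁻¹
  have hT : diagU (Function.update (fun _ : Fin 3 => (1 : Fˣ)) 0 t) ∈ A.G := by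
    refine A.diag_mem _ fun i => ?_
    rcases eq_or_ne i 0 with rfl | hi
    · rw [Function.update_self]; exact inv_mem (div_mem (A.det_mem _ hP') (A.det_mem _ hP))
    · rw [Function.update_of_ne hi]; exact one_mem _
  set T := diagU (Function.update (fun _ : Fin 3 => (1 : Fˣ)) 0 t) with hTdef
  refine ⟨P' * T * P⁻¹, ⟨mul_mem (mul_mem hP' hT) (A.G.inv_mem hP), det_mem_sl.2 ?_⟩, ?_⟩
  · rw [map_mul, map_mul, map_inv, hTdef, det_diagU]
    simp [t, div_eq_mul_inv]
  · have ex : x = P' * diagU d * P'⁻¹ := eq_mul_inv_of_mul_eq hx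
    have eh : h = P * diagU d * P⁻¹ := eq_mul_inv_of_mul_eq hh
    rw [ex, eh]
    have hc : T⁻¹ * diagU d * T = diagU d := by rw [mul_assoc, diagU_comm, inv_mul_cancel_left]
    calc _ = P * (T⁻¹ * diagU d * T) * P⁻¹ := by group
      _ = _ := by rw [hc]

/-- Nonscalar elements of determinant one with scalar square have one normal form. -/
theorem exists_involution_form (A : Ambient F 3) (hneg : (-1 : Fˣ) ∈ A.norms) (h2 : (2 : F) ≠ 0)
    {x : GL (Fin 3) F} (hxG : x ∈ A.G) (hx1 : Matrix.GeneralLinearGroup.det x = 1)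
    {y : Fˣ} (hy : y ∈ A.norms) (hy3 : y ^ 3 = 1)
    (hx : (x : Matrix (Fin 3) (Fin 3) F) ^ 2 = ((y : F) ^ 2) • (1 : Matrix (Fin 3) (Fin 3) F))
    (hns : ∀ c : F, (x : Matrix (Fin 3) (Fin 3) F) ≠ c • (1 : Matrix (Fin 3) (Fin 3) F)) :
    ∃ P ∈ A.G, x * P = P * diagU (fun i : Fin 3 => y * if i = 0 then 1 else -1) := by
  have hprim : IsPrimitiveRoot (-1 : Fˣ) 2 := by
    refine IsPrimitiveRoot.iff_orderOf.2 (orderOf_eq_prime (by simp) fun h => h2 ?_)
    have h' : (-1 : F) = 1 := by simpa using congrArg Units.val h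
    linear_combination -h'
  obtain ⟨P, hP, e, he⟩ := A.eigen 2 (-1) y hprim (by norm_num) (by exact_mod_cast h2) hneg hy x hxG hx
  have hx' : x = P * diagU (fun i => y * (-1 : Fˣ) ^ e i) * P⁻¹ := eq_mul_inv_of_mul_eq he
  have hprod : (-1 : Fˣ) ^ (e 0 + e 1 + e 2) = 1 := by
    have h := hx1
    rw [hx', map_mul, map_mul, map_inv, mul_right_comm, mul_inv_cancel, one_mul, det_diagU] at h
    refine Eq.trans ?_ h
    rw [pow_add, pow_add]
    calc _ = y ^ 3 * ((-1 : Fˣ) ^ e 0 * (-1) ^ e 1 * (-1) ^ e 2) := by rw [hy3, one_mul]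
      _ = _ := by rw [pow_three]; ac_rfl
  have hne : ¬ (e 0 % 2 = e 1 % 2 ∧ e 1 % 2 = e 2 % 2) := by
    rintro ⟨h01, h12⟩
    refine hns ((y * (-1 : Fˣ) ^ e 0 : Fˣ) : F) ?_
    have hd : diagU (fun i => y * (-1 : Fˣ) ^ e i) = scalU (y * (-1 : Fˣ) ^ e 0) := by
      rw [scalU]
      congr 1
      funext i
      have hp : ∀ j, e j % 2 = e 0 % 2 → y * (-1 : Fˣ) ^ e j = y * (-1 : Fˣ) ^ e 0 := fun j hj => by
        rw [← pow_mod_orderOf (-1 : Fˣ) (e j), ← pow_mod_orderOf (-1 : Fˣ) (e 0), ← hprim.eq_orderOf, hj]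
      fin_cases i
      · rfl
      · exact hp 1 h01.symm
      · exact hp 2 (h12.symm.trans h01.symm)
    rw [hx', hd, scalU_conj, coe_scalU]
  have hsum : (e 0 + e 1 + e 2) % 2 = 0 := by
    have h := hprim.dvd_of_pow_eq_one _ hprod
    omega
  obtain ⟨σ, hσ⟩ : ∃ σ : Equiv.Perm (Fin 3), ∀ i, e (σ i) % 2 = if i = 0 then 0 else 1 := by
    rcases (show (e 0 % 2 = 0 ∧ e 1 % 2 = 1 ∧ e 2 % 2 = 1) ∨ (e 0 % 2 = 1 ∧ e 1 % 2 = 0 ∧ e 2 % 2 = 1) ∨
      (e 0 % 2 = 1 ∧ e 1 % 2 = 1 ∧ e 2 % 2 = 0) by omega) with ⟨a, b, c⟩ | ⟨a, b, c⟩ | ⟨a, b, c⟩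
    · exact ⟨1, fun i => by fin_cases i <;> simp [a, b, c]⟩
    · exact ⟨Equiv.swap 0 1, fun i => by fin_cases i <;> simp [a, b, c, Equiv.swap_apply_of_ne_of_ne]⟩
    · exact ⟨Equiv.swap 0 2, fun i => by fin_cases i <;> simp [a, b, c, Equiv.swap_apply_of_ne_of_ne]⟩
  refine ⟨P * permU σ, mul_mem hP (A.perm_mem σ), ?_⟩
  rw [← mul_assoc, he, mul_assoc, mul_assoc, permU_diagU]
  congr 2
  · congr 1
    funext i
    show y * (-1 : Fˣ) ^ e i = y * if σ.symm i = 0 then 1 else -1
    have h := hσ (σ.symm i)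
    rw [Equiv.apply_symm_apply] at h
    rw [← pow_mod_orderOf (-1 : Fˣ) (e i), ← hprim.eq_orderOf, h]
    split_ifs <;> simp

/-- The classification of the primes whose elements all meet the normalizer. -/
theorem main [Finite F] (A : Ambient F 3) {ω : Fˣ} (hω : IsPrimitiveRoot ω 3) (hωn : ω ∈ A.norms)
    (h3 : (3 : F) ≠ 0) (h2 : (2 : F) ≠ 0) (hneg : (-1 : Fˣ) ∈ A.norms) (nine : Prop)
    (h9 : nine → ∃ ν : Fˣ, ν ∈ A.norms ∧ ν ^ 3 = ω)
    (h81 : ¬ nine → ¬ 81 ∣ Nat.card ↥(A.G ⊓ Cfsg.Geo.specialLinear (Fin 3) F))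
    {R : Subgroup (GL (Fin 3) F)} (hRG : R ≤ A.G) (hR : Nat.card R = 27) (hRe : Monoid.exponent R = 3)
    (hRna : ¬ IsMulCommutative R) (r : ℕ) [Fact r.Prime]
    (hΩ : r ∣ (Cfsg.Geo.subgroupNormalizer R).relIndex (A.G ⊓ Cfsg.Geo.specialLinear (Fin 3) F)) :
    (∀ x ∈ A.G ⊓ Cfsg.Geo.specialLinear (Fin 3) F,
      (∃ z : F, ((x ^ r : GL (Fin 3) F) : Matrix (Fin 3) (Fin 3) F) = z • (1 : Matrix (Fin 3) (Fin 3) F)) →
      (∀ z : F, (x : Matrix (Fin 3) (Fin 3) F) ≠ z • (1 : Matrix (Fin 3) (Fin 3) F)) →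
      ∃ g ∈ A.G ⊓ Cfsg.Geo.specialLinear (Fin 3) F, g⁻¹ * x * g ∈ Cfsg.Geo.subgroupNormalizer R) ↔
      (r = 2 ∨ (r = 3 ∧ nine)) := by
  haveI : Finite R := Nat.finite_of_card_ne_zero (by omega)
  obtain ⟨Φ⟩ := exists_frame A hω hωn h3 hRG hR hRe hRna
  -- the scalar power is a cube root of unity
  have hz : ∀ x : GL (Fin 3) F, x ∈ Cfsg.Geo.specialLinear (Fin 3) F → ∀ z : F,
      ((x ^ r : GL (Fin 3) F) : Matrix (Fin 3) (Fin 3) F) = z • (1 : Matrix (Fin 3) (Fin 3) F) →
      ∃ i : ℕ, z = ((ω ^ i : Fˣ) : F) := by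
    intro x hx z hz
    have h1 : z ^ 3 = 1 := by
      have h := congrArg Matrix.det hz
      rw [Matrix.det_smul, Matrix.det_one, mul_one, Fintype.card_fin, ← Matrix.GeneralLinearGroup.val_det_apply,
        map_pow, det_mem_sl.1 hx, one_pow] at h
      exact h.symm
    obtain ⟨i, -, hi⟩ := (IsPrimitiveRoot.coe_units_iff.2 hω).eq_pow_of_pow_eq_one h1
    exact ⟨i, by rw [← hi, Units.val_pow_eq_pow_val]⟩
  constructor
  · intro hall
    by_contra hcon
    push Not at hcon
    obtain ⟨hr2, hr3⟩ := hcon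
    by_cases h : r = 3
    · subst h
      have hR81 := h81 (hr3 rfl)
      refine hR81 ?_
      set H := A.G ⊓ Cfsg.Geo.specialLinear (Fin 3) F
      have hRH : R ≤ Cfsg.Geo.subgroupNormalizer R ⊓ H := by
        refine le_inf Subgroup.le_normalizer (le_inf hRG ?_)
        conv_lhs => rw [← Φ.gen]
        refine (Subgroup.closure_le _).2 ?_
        rintro _ (rfl | rfl) <;> refine det_mem_sl.2 ?_ <;>
          rw [map_mul, map_mul, map_inv, mul_right_comm, mul_inv_cancel, one_mul]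
        · rw [det_diagU]
          simp only [Fin.val_zero, Fin.val_one, Fin.val_two, pow_zero, pow_one, one_mul]
          rw [← pow_succ', hω.pow_eq_one]
        · exact det_rot
      have hmul : Nat.card ↥(Cfsg.Geo.subgroupNormalizer R ⊓ H) *
          (Cfsg.Geo.subgroupNormalizer R).relIndex H = Nat.card H := by
        rw [← Subgroup.inf_relIndex_right, Subgroup.relIndex,
          ← Nat.card_congr (Subgroup.subgroupOfEquivOfLe (inf_le_right : Cfsg.Geo.subgroupNormalizer R ⊓ H ≤ H)).toEquiv,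
          Subgroup.card_mul_index]
      rw [← hmul, show (81 : ℕ) = 27 * 3 from rfl]
      exact Nat.mul_dvd_mul (hR ▸ Subgroup.card_dvd_of_le hRH) hΩ
    · have hr5 : 5 ≤ r := by
        have := (Fact.out : r.Prime).two_le
        rcases Nat.lt_or_ge r 5 with hlt | hge
        · interval_cases r <;> simp_all
          exact absurd (Fact.out : Nat.Prime 4) (by norm_num)
        · exact hge
      set H := A.G ⊓ Cfsg.Geo.specialLinear (Fin 3) F
      obtain ⟨x, hx⟩ := exists_prime_orderOf_dvd_card' (G := H) r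
        (hΩ.trans (Subgroup.relIndex_dvd_card _ _))
      have hxr : (x : GL (Fin 3) F) ^ r = 1 := by
        rw [← Subgroup.coe_pow, ← hx, pow_orderOf_eq_one]; rfl
      have hns : ∀ z : F, ((x : GL (Fin 3) F) : Matrix (Fin 3) (Fin 3) F) ≠ z • 1 := by
        intro z hzx
        have hz3 : z ^ 3 = 1 := by
          have h := congrArg Matrix.det hzx
          rw [Matrix.det_smul, Matrix.det_one, mul_one, Fintype.card_fin, ← Matrix.GeneralLinearGroup.val_det_apply,
            det_mem_sl.1 x.2.2] at h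
          exact h.symm
        have hz1 : z ^ r = 1 := by
          have h := congrArg Units.val hxr
          rw [Units.val_pow_eq_pow_val, hzx, _root_.smul_pow, one_pow, Units.val_one] at h
          simpa using congrFun (congrFun h 0) 0
        have : z = 1 := by
          have hcop : Nat.Coprime 3 r := (Nat.coprime_primes Nat.prime_three (Fact.out : r.Prime)).2 (Ne.symm h)
          exact orderOf_eq_one_iff.1 (Nat.eq_one_of_dvd_coprimes hcop (orderOf_dvd_of_pow_eq_one hz3)
            (orderOf_dvd_of_pow_eq_one hz1))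
        refine (Fact.out : r.Prime).one_lt.ne (hx ▸ ?_)
        rw [eq_comm, orderOf_eq_one_iff]
        exact Subtype.ext (Units.ext (by rw [hzx, this, one_smul]; rfl))
      obtain ⟨g, hg, hgx⟩ := hall x x.2 ⟨1, by rw [hxr, one_smul]; rfl⟩ hns
      set k := g⁻¹ * (x : GL (Fin 3) F) * g with hk
      have hkr : k ^ r = 1 := by
        have : k = g⁻¹ * (x : GL (Fin 3) F) * (g⁻¹)⁻¹ := by rw [inv_inv]
        rw [this, conj_pow, hxr, mul_one, mul_inv_cancel]
      -- `k` centralises `R`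
      let α : MulAut R := R.normalizerMonoidHom ⟨k, hgx⟩
      have hαr : α ^ r = 1 := by
        rw [← map_pow, show (⟨k, hgx⟩ : Subgroup.normalizer (R : Set (GL (Fin 3) F))) ^ r = 1 from Subtype.ext hkr,
          map_one]
      have hα : IsPGroup r (Subgroup.zpowers α) := by
        rintro ⟨_, i, rfl⟩
        refine ⟨1, Subtype.ext ?_⟩
        show (α ^ i) ^ r ^ 1 = 1
        rw [pow_one, ← zpow_natCast, ← _root_.zpow_mul, mul_comm, _root_.zpow_mul, zpow_natCast, hαr, _root_.one_zpow]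
      have hfix := hα.card_modEq_card_fixedPoints (α := R)
      rw [hR] at hfix
      let C : Subgroup R :=
        { carrier := MulAction.fixedPoints (Subgroup.zpowers α) R
          one_mem' := fun m => map_one (m : MulAut R)
          mul_mem' := fun {a b} ha hb m => (map_mul (m : MulAut R) a b).trans (by rw [show (m : MulAut R) a = a from ha m, show (m : MulAut R) b = b from hb m])
          inv_mem' := fun {a} ha m => (map_inv (m : MulAut R) a).trans (by rw [show (m : MulAut R) a = a from ha m]) }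
      have hC : Nat.card C ∣ 3 ^ 3 := (Subgroup.card_subgroup_dvd_card C).trans (dvd_of_eq hR)
      obtain ⟨j, hj, hj'⟩ := (Nat.dvd_prime_pow Nat.prime_three).1 hC
      have hω1 : (⟨scalU ω, Φ.scal_mem⟩ : R) ∈ C := by
        intro m
        obtain ⟨i, hi⟩ := m.2
        have h1 : α ⟨scalU ω, Φ.scal_mem⟩ = ⟨scalU ω, Φ.scal_mem⟩ :=
          Subtype.ext (by
            show k * scalU ω * k⁻¹ = scalU ω
            rw [← scalU_comm, mul_inv_cancel_right])
        show (m : MulAut R) _ = _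
        rw [← hi]
        have h2 : ∀ n : ℕ, (α ^ n) ⟨scalU ω, Φ.scal_mem⟩ = ⟨scalU ω, Φ.scal_mem⟩ := by
          intro n
          induction n with
          | zero => rfl
          | succ n ih => rw [pow_succ, MulAut.mul_apply, h1, ih]
        obtain ⟨n, hn⟩ : ∃ n : ℕ, α ^ i = α ^ n := by
          have hfin : IsOfFinOrder α := isOfFinOrder_iff_pow_eq_one.2 ⟨r, (Fact.out : r.Prime).pos, hαr⟩
          obtain ⟨n, hn⟩ := hfin.mem_powers_iff_mem_zpowers.2 (zpow_mem (Subgroup.mem_zpowers α) i)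
          exact ⟨n, hn.symm⟩
        show (α ^ i) _ = _
        rw [hn, h2]
      have hj27 : Nat.card C = 27 := by
        have hmod : 27 ≡ Nat.card C [MOD r] := hfix
        rcases (show j = 0 ∨ j = 1 ∨ j = 2 ∨ j = 3 by omega) with rfl | rfl | rfl | rfl <;> norm_num at hj'
        · haveI : Subsingleton C := by rw [hj']; infer_instance
          have e := congrArg (fun g : C => ((g : R) : GL (Fin 3) F))
            (Subsingleton.elim (⟨_, hω1⟩ : C) ⟨1, one_mem _⟩)
          have e' : ((scalU ω : GL (Fin 3) F) : Matrix (Fin 3) (Fin 3) F) 0 0 = 1 := by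
            simp only at e; rw [e]; simp
          rw [coe_scalU] at e'
          exact absurd (Units.ext (by simpa using e')) (hω.ne_one (by norm_num))
        · rw [hj'] at hmod
          have hd := (Nat.modEq_iff_dvd' (by norm_num : 3 ≤ 27)).1 hmod.symm
          norm_num at hd
          have := Nat.le_of_dvd (by norm_num) hd
          have hrp := (Fact.out : r.Prime)
          interval_cases r <;> first
            | (norm_num at hd; done)
            | (norm_num at hrp)
        · rw [hj'] at hmod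
          have hd := (Nat.modEq_iff_dvd' (by norm_num : 9 ≤ 27)).1 hmod.symm
          norm_num at hd
          have := Nat.le_of_dvd (by norm_num) hd
          have hrp := (Fact.out : r.Prime)
          interval_cases r <;> first
            | (norm_num at hd; done)
            | (norm_num at hrp)
        · exact hj'
      have hcomm : ∀ v ∈ R, k * v = v * k := by
        intro v hv
        have hv' : (⟨v, hv⟩ : R) ∈ C := by
          rw [Subgroup.eq_top_of_card_eq C (hj27.trans hR.symm)]; exact Subgroup.mem_top _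
        exact mul_inv_eq_iff_eq_mul.1 (congrArg Subtype.val (hv' ⟨α, Subgroup.mem_zpowers α⟩))
      -- so it is scalar
      set k' := Φ.P⁻¹ * k * Φ.P with hk'
      have hcom' : ∀ v : GL (Fin 3) F, Φ.P * v * Φ.P⁻¹ ∈ R → k' * v = v * k' := by
        intro v hv
        have := hcomm _ hv
        calc k' * v = Φ.P⁻¹ * (k * (Φ.P * v * Φ.P⁻¹)) * Φ.P := by rw [hk']; group
          _ = Φ.P⁻¹ * ((Φ.P * v * Φ.P⁻¹) * k) * Φ.P := by rw [this]
          _ = v * k' := by rw [hk']; group
      have hd := congrArg Units.val (hcom' _ Φ.a_mem)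
      have hp := congrArg Units.val (hcom' _ Φ.b_mem)
      set M := ((k' : GL (Fin 3) F) : Matrix (Fin 3) (Fin 3) F) with hM
      have hoff : ∀ i j, i ≠ j → M i j = 0 := by
        intro i j hij
        have h := congrFun (congrFun hd i) j
        simp only [Units.val_mul, coe_diagU, Matrix.mul_diagonal, Matrix.diagonal_mul, ← hM] at h
        have hne : ((ω ^ (j : ℕ) : Fˣ) : F) ≠ ((ω ^ (i : ℕ) : Fˣ) : F) := fun e =>
          hij (Fin.ext (hω.pow_inj i.2 j.2 (Units.ext e.symm)))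
        by_contra h0
        exact hne (mul_left_cancel₀ h0 (h.trans (mul_comm _ _)))
      have hdg : ∀ i, M i i = M 0 0 := by
        have h10 := congrFun (congrFun hp 1) 0
        have h21 := congrFun (congrFun hp 2) 1
        simp [← hM, Matrix.mul_apply, coe_permU, Fin.sum_univ_three, rot_symm_zero, rot_symm_one, rot_symm_two]
          at h10 h21
        intro i
        fin_cases i
        · rfl
        · exact h10
        · exact h21.trans h10
      have hk'M : k' = Φ.P⁻¹ * k * Φ.P := hk'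
      have hMs : M = (M 0 0) • 1 := by
        ext i j
        rcases eq_or_ne i j with rfl | hij
        · simp [hdg i]
        · simp [hoff i j hij, hij]
      have hxk : (x : GL (Fin 3) F) = g * (Φ.P * k' * Φ.P⁻¹) * g⁻¹ := by rw [hk'M, hk]; group
      refine hns (M 0 0) ?_
      rw [hxk, Units.val_mul, Units.val_mul, Units.val_mul, Units.val_mul, ← hM]
      generalize hc0 : M 0 0 = c0
      rw [hc0] at hMs
      rw [hMs, mul_smul_comm, mul_one, smul_mul_assoc, ← Units.val_mul, mul_inv_cancel, Units.val_one,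
        mul_smul_comm, mul_one, smul_mul_assoc, ← Units.val_mul, mul_inv_cancel, Units.val_one]
  · rintro (rfl | ⟨rfl, hn⟩) x ⟨hxG, hx1⟩ ⟨z, hzx⟩ hns
    · obtain ⟨i, rfl⟩ := hz x hx1 z hzx
      set y : Fˣ := ω ^ (2 * i)
      have hy2 : y ^ 2 = ω ^ i := by
        rw [← pow_mul, show 2 * i * 2 = i + 3 * i by ring, pow_add, pow_mul ω 3, hω.pow_eq_one, one_pow, mul_one]
      have hy3 : y ^ 3 = 1 := by rw [← pow_mul, mul_comm, pow_mul, hω.pow_eq_one, one_pow]
      obtain ⟨P', hP', hP'x⟩ := exists_involution_form A hneg h2 hxG (det_mem_sl.1 hx1) (pow_mem hωn _) hy3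
        (by rw [← Units.val_pow_eq_pow_val, hzx, ← Units.val_pow_eq_pow_val y, hy2]) hns
      -- the involution normalising `R`
      set S₀ := scalU (-1 : Fˣ) * permU (F := F) (Equiv.swap 1 2) with hS₀
      set X := Φ.P * S₀ * Φ.P⁻¹ with hX
      have hXG : X ∈ A.G :=
        mul_mem (mul_mem Φ.P_mem (mul_mem (A.diag_mem _ fun _ => hneg) (A.perm_mem _))) (inv_mem Φ.P_mem)
      have hsw : (Equiv.swap (1 : Fin 3) 2).symm = Equiv.swap 1 2 := Equiv.symm_swap 1 2
      have hs0 : Equiv.swap (1 : Fin 3) 2 0 = 0 := rfl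
      have hs1 : Equiv.swap (1 : Fin 3) 2 1 = 2 := rfl
      have hs2 : Equiv.swap (1 : Fin 3) 2 2 = 1 := rfl
      have hS1 : Matrix.GeneralLinearGroup.det S₀ = 1 := Units.ext (by
        simp [hS₀, scalU, Matrix.det_fin_three, coe_permU, hsw, hs0, hs1, hs2]
        norm_num)
      have hS2 : ((S₀ : GL (Fin 3) F) : Matrix (Fin 3) (Fin 3) F) ^ 2 = 1 := by
        rw [pow_two]
        ext i j
        fin_cases i <;> fin_cases j <;>
          simp [hS₀, scalU, Matrix.mul_apply, coe_permU, Fin.sum_univ_three, hsw, hs0, hs1, hs2]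
      have hXns : ∀ c : F, ((X : GL (Fin 3) F) : Matrix (Fin 3) (Fin 3) F) ≠ c • 1 := by
        intro c hc
        have h1 : ((S₀ : GL (Fin 3) F) : Matrix (Fin 3) (Fin 3) F) = c • 1 := by
          have : S₀ = Φ.P⁻¹ * X * Φ.P := by rw [hX]; group
          rw [this]
          simp [Units.val_mul, hc]
        have := congrFun (congrFun h1 1) 2
        simp [hS₀, scalU, coe_permU, hsw, hs0, hs1, hs2] at this
      obtain ⟨P, hP, hPX⟩ := exists_involution_form A hneg h2 hXG
        (by rw [hX, map_mul, map_mul, map_inv, hS1, mul_one, mul_inv_cancel]) (one_mem _) (one_pow 3)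
        (by rw [← Units.val_pow_eq_pow_val, hX, conj_pow, Units.val_mul, Units.val_mul, Units.val_pow_eq_pow_val,
              hS2, mul_one, ← Units.val_mul, mul_inv_cancel, Units.val_one, Units.val_one, one_pow, one_smul]) hXns
      obtain ⟨g, hg, hgx⟩ := exists_conj (A := A) hP hP' hP'x (h := scalU y * X) (by
        rw [mul_assoc, hPX, ← mul_assoc, scalU_comm, mul_assoc, scalU, diagU_mul]
        congr 2
        funext j
        show (ω ^ (2 * i) : Fˣ) * (1 * if j = 0 then 1 else -1) = ω ^ (2 * i) * if j = 0 then 1 else -1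
        rw [one_mul])
      refine ⟨g, hg, ?_⟩
      rw [hgx]
      refine mul_mem (scalU_mem_normalizer y Φ) (Φ.mem_normalizer ?_ ?_)
      · have e : S₀ * diagU (fun i : Fin 3 => ω ^ (i : ℕ)) * S₀⁻¹ =
            diagU (fun i : Fin 3 => ω ^ (i : ℕ)) ^ 2 := by
          rw [mul_inv_eq_iff_eq_mul, pow_two, diagU_mul]
          ext i j
          have h4 : (ω : F) ^ 3 = 1 := (IsPrimitiveRoot.coe_units_iff.2 hω).pow_eq_one
          fin_cases i <;> fin_cases j <;>
            simp [hS₀, scalU, Matrix.mul_apply, coe_permU, Fin.sum_univ_three, hsw, hs0, hs1, hs2]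
          all_goals first | ring1 | linear_combination (ω : F) * h4 | linear_combination -(ω : F) * h4
        have e2 : X * (Φ.P * diagU (fun i => ω ^ (i : ℕ)) * Φ.P⁻¹) * X⁻¹ =
            Φ.P * (S₀ * diagU (fun i => ω ^ (i : ℕ)) * S₀⁻¹) * Φ.P⁻¹ := by rw [hX]; group
        rw [e2, e, ← conj_pow]
        exact R.pow_mem Φ.a_mem 2
      · have e : S₀ * permU (F := F) rot * S₀⁻¹ = permU rot ^ 2 := by
          rw [mul_inv_eq_iff_eq_mul, pow_two]
          ext i j
          fin_cases i <;> fin_cases j <;>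
            simp [hS₀, scalU, Matrix.mul_apply, coe_permU, Fin.sum_univ_three, hsw, hs0, hs1, hs2, rot_symm_zero,
              rot_symm_one, rot_symm_two]
        have e2 : X * (Φ.P * permU rot * Φ.P⁻¹) * X⁻¹ = Φ.P * (S₀ * permU rot * S₀⁻¹) * Φ.P⁻¹ := by
          rw [hX]; group
        rw [e2, e, ← conj_pow]
        exact R.pow_mem Φ.b_mem 2
    · obtain ⟨ν, hν, hν3⟩ := h9 hn
      obtain ⟨i, rfl⟩ := hz x hx1 z hzx
      obtain ⟨P', hP', e, he⟩ := A.eigen 3 ω (ν ^ i) hω (by norm_num) (by exact_mod_cast h3) hωn (pow_mem hν i) x hxG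
        (by rw [← Units.val_pow_eq_pow_val, hzx, ← Units.val_pow_eq_pow_val (ν ^ i), ← pow_mul, mul_comm, pow_mul,
              hν3])
      obtain ⟨g, hg, hgx⟩ := exists_conj (A := A) Φ.P_mem hP' he
        (h := Φ.P * diagU (fun j => ν ^ i * ω ^ e j) * Φ.P⁻¹) (by rw [inv_mul_cancel_right])
      refine ⟨g, hg, ?_⟩
      rw [hgx]
      exact Φ.diag_normalizer hω _ _

end CfsgLib.Classical.PrimeDerangement.Three
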